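import Cfsg.Agent.H1.CoprimeGen
import Cfsg.Agent.H1.InvSylow
import Cfsg.Agent.H99.Idx
import Cfsg.Agent.H98.Sylow
import Cfsg.Agent.H28.ConjCount

/-! Bounded conjugacy classes under a coprime action of a non-cyclic abelian group; Dietzmann's
lemma with a bound. -/

set_option autoImplicit false

namespace H25.BFC
open Subgroup
open scoped commutatorElement IsMulCommutative

theorem pow_self_mono {k n : ℕ} (h : k ≤ n) : k ^ k ≤ n ^ n := by
  rcases Nat.eq_zero_or_pos n with rfl | hn
  · obtain rfl : k = 0 := by omega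
    rfl
  · exact (Nat.pow_le_pow_left h k).trans (Nat.pow_le_pow_right hn h)

/-- Dietzmann's lemma with a bound. -/
theorem dietzmann {N : Type*} [Group N] [Finite N] (T : Set N) (hT : closure T = ⊤)
    (hinv : ∀ g : N, ∀ t ∈ T, g * t * g⁻¹ ∈ T) {n e : ℕ} (hn : Nat.card T ≤ n) (he0 : 0 < e)
    (he : ∀ t ∈ T, t ^ e = 1) : Nat.card N ≤ n ^ n * (n ^ n * e) ^ (n ^ n * n) := by
  have hi : (center N).index ≤ n ^ n := by
    refine le_trans ?_ (pow_self_mono hn)
    rw [← Nat.card_fun]
    refine Nat.card_le_card_of_injective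
      (fun (q : N ⧸ center N) (t : T) => (⟨q.out * t * q.out⁻¹, hinv _ _ t.2⟩ : T)) ?_
    intro a b hab
    rw [← a.out_eq, ← b.out_eq]
    refine Quotient.sound (QuotientGroup.leftRel_apply.2 ?_)
    have h : closure T ≤ centralizer ({a.out⁻¹ * b.out} : Set N) := by
      rw [closure_le]
      intro t ht
      have h1 := congrArg Subtype.val (congrFun hab ⟨t, ht⟩)
      simp only at h1
      rw [SetLike.mem_coe, mem_centralizer_singleton_iff]
      calc t * (a.out⁻¹ * b.out) = a.out⁻¹ * (a.out * t * a.out⁻¹) * b.out := by group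
        _ = a.out⁻¹ * b.out * t := by rw [h1]; group
    rw [hT] at h
    exact mem_center_iff.2 fun g => mem_centralizer_singleton_iff.1 (h (mem_top g))
  have hexp : ∀ g : N, MonoidHom.transferCenterPow N g ^ e = 1 := by
    have h : closure T ≤ ((powMonoidHom e).comp (MonoidHom.transferCenterPow N)).ker := by
      rw [closure_le]
      intro t ht
      rw [SetLike.mem_coe, MonoidHom.mem_ker, MonoidHom.comp_apply, powMonoidHom_apply,
        ← map_pow, he t ht, map_one]
    intro g
    exact h (hT ▸ mem_top g)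
  have hr : Group.rank N ≤ n := by
    have h1 := rank_closure_finite_le_nat_card T
    rw [Subgroup.rank_congr hT, Group.rank_congr topEquiv] at h1
    exact h1.trans hn
  have hz : Nat.card (center N) ∣ ((center N).index * e) ^ Group.rank (center N) := by
    apply card_dvd_exponent_pow_rank'
    intro g
    have h1 := congrArg Subtype.val (hexp g)
    rw [SubgroupClass.coe_pow, MonoidHom.transferCenterPow_apply, ← pow_mul] at h1
    exact Subtype.ext h1
  have hi0 : 0 < (center N).index := Nat.pos_of_ne_zero index_ne_zero_of_finite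
  have hrz : Group.rank (center N) ≤ n ^ n * n :=
    (rank_le_index_mul_rank (center N)).trans (Nat.mul_le_mul hi hr)
  rw [← (center N).index_mul_card]
  refine Nat.mul_le_mul hi ((Nat.le_of_dvd (by positivity) hz).trans ?_)
  exact (Nat.pow_le_pow_left (Nat.mul_le_mul_right e hi) _).trans
    (Nat.pow_le_pow_right (Nat.mul_pos (hi0.trans_le hi) he0) hrz)

variable {G : Type*} [Group G] [Finite G]

theorem index_centralizer_le (x : G) :
    (centralizer ({x} : Set G)).index ≤ Nat.card (commutator G) := by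
  refine Nat.card_le_card_of_injective (fun q : G ⧸ centralizer ({x} : Set G) =>
    (⟨⁅q.out, x⁆, commutator_mem_commutator (mem_top _) (mem_top _)⟩ : commutator G)) ?_
  intro a b hab
  rw [← a.out_eq, ← b.out_eq]
  refine Quotient.sound (QuotientGroup.leftRel_apply.2 ?_)
  have h1 := congrArg Subtype.val hab
  simp only [commutatorElement_def, mul_left_inj] at h1
  rw [mem_centralizer_singleton_iff]
  calc a.out⁻¹ * b.out * x = a.out⁻¹ * (b.out * x * b.out⁻¹) * b.out := by group
    _ = x * (a.out⁻¹ * b.out) := by rw [← h1]; group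

theorem relIndex_centralizer_le {F : Subgroup G} {x : G} (hx : x ∈ F) :
    (centralizer ({x} : Set G)).relIndex F ≤ Nat.card (commutator F) := by
  have h : (centralizer ({x} : Set G)).subgroupOf F = centralizer ({⟨x, hx⟩} : Set F) := by
    ext y
    simp only [mem_subgroupOf, mem_centralizer_singleton_iff, Subtype.ext_iff, coe_mul]
  rw [relIndex, h]
  exact index_centralizer_le _

variable {B : Type*} [Group B] [Finite B] [IsMulCommutative B]

/-- fixed points of one operator -/
def Fx (φ : B →* MulAut G) (b : B) : Subgroup G := (φ b).toMonoidHom.eqLocus (MonoidHom.id G)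

omit [Finite G] [Finite B] [IsMulCommutative B] in
theorem mem_Fx {φ : B →* MulAut G} {b : B} {x : G} : x ∈ Fx φ b ↔ φ b x = x := Iff.rfl

omit [Finite G] [Finite B] in
theorem Fx_inv (φ : B →* MulAut G) (b a : B) (x : G) (hx : x ∈ Fx φ b) : φ a x ∈ Fx φ b := by
  rw [mem_Fx] at hx ⊢
  rw [← MulAut.mul_apply, ← map_mul, mul_comm, map_mul, MulAut.mul_apply, hx]

open Classical in
theorem relIndex_le_prod [Fintype B] (hB : ¬ IsCyclic B) (φ : B →* MulAut G)
    (hcop : (Nat.card B).Coprime (Nat.card G)) {p : ℕ} [Fact p.Prime] {P : Subgroup G}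
    (hP : IsPGroup p P) (hPi : ∀ a, ∀ x ∈ P, φ a x ∈ P) (H : Subgroup G) :
    H ≤ P → (∀ a, ∀ x ∈ H, φ a x ∈ H) →
      H.relIndex P ≤ ∏ b ∈ Finset.univ.erase 1, H.relIndex (P ⊓ Fx φ b) := by
  induction H using WellFoundedGT.induction with
  | ind H ih =>
  intro hHP hHi
  have hpos : ∀ X Y : Subgroup G, 0 < X.relIndex Y := fun X Y =>
    Nat.pos_of_ne_zero index_ne_zero_of_finite
  rcases hHP.eq_or_lt with rfl | hlt
  · rw [relIndex_self]
    exact Finset.prod_pos fun b _ => hpos _ _
  have hN := H98.lt_inf_normalizer hP hlt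
  set N := P ⊓ normalizer (H : Set G) with hNd
  have hNi : ∀ a, ∀ x ∈ N, φ a x ∈ N := fun a x hx =>
    ⟨hPi a x hx.1, H1.invariant_normalizer φ hHi a x hx.2⟩
  obtain ⟨b, hb, x, hxN, hxb, hxH⟩ : ∃ b, b ≠ 1 ∧ ∃ x ∈ N, φ b x = x ∧ x ∉ H := by
    by_contra h
    push Not at h
    exact hN.not_ge (H1.le_of_noncyclic_fixed hB φ N hNi
      (hcop.coprime_dvd_right (card_subgroup_dvd_card N)) H h)
  set C := N ⊓ Fx φ b with hC
  have hCi : ∀ a, ∀ x ∈ C, φ a x ∈ C := fun a x hx => ⟨hNi a x hx.1, Fx_inv φ b a x hx.2⟩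
  have hK : H < C ⊔ H := lt_of_le_of_ne le_sup_right fun h =>
    hxH (h ▸ (le_sup_left : C ≤ C ⊔ H) ⟨hxN, hxb⟩)
  have hKP : C ⊔ H ≤ P := sup_le (inf_le_left.trans inf_le_left) hHP
  have hKi : ∀ a, ∀ x ∈ C ⊔ H, φ a x ∈ C ⊔ H := fun a =>
    (sup_le (fun y hy => (le_sup_left : C ≤ C ⊔ H) (hCi a y hy))
      (fun y hy => (le_sup_right : H ≤ C ⊔ H) (hHi a y hy)) :
        C ⊔ H ≤ (C ⊔ H).comap (φ a).toMonoidHom)
  have h1 := ih _ hK hKP hKi
  have hbm : b ∈ Finset.univ.erase (1 : B) := by simp [hb]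
  rw [← relIndex_mul_relIndex H (C ⊔ H) P hK.le hKP,
    H99.relIndex_sup_of_le_normalizer (inf_le_left.trans inf_le_right),
    ← Finset.mul_prod_erase _ _ hbm]
  rw [← Finset.mul_prod_erase _ _ hbm] at h1
  have h2 := relIndex_inf_mul_relIndex H (C ⊔ H) (P ⊓ Fx φ b)
  rw [inf_eq_left.2 hK.le] at h2
  rw [← h2, mul_assoc]
  refine Nat.mul_le_mul (relIndex_le_of_le_right
    (le_inf le_sup_left (inf_le_inf_right _ inf_le_left)) (hpos _ _).ne') (h1.trans ?_)
  exact Nat.mul_le_mul_left _ (Finset.prod_le_prod' fun c _ =>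
    relIndex_le_of_le_left hK.le (hpos _ _).ne')

/-- an invariant subgroup of small index in all fixed point subgroups has bounded index -/
theorem index_le (hB : ¬ IsCyclic B) (φ : B →* MulAut G)
    (hcop : (Nat.card B).Coprime (Nat.card G)) {X : Subgroup G} (hX : ∀ a, ∀ x ∈ X, φ a x ∈ X)
    {m k : ℕ} (hm0 : 0 < m) (hk : Nat.card B ≤ k)
    (hm : ∀ b, b ≠ 1 → X.relIndex (Fx φ b) ≤ m) : X.index ≤ (m ^ k).factorial := by
  classical
  have := Fintype.ofFinite B
  refine Nat.le_of_dvd (Nat.factorial_pos _) ((Nat.dvd_iff_prime_pow_dvd_dvd _ _).2 ?_)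
  intro p j hp hj
  have : Fact p.Prime := ⟨hp⟩
  obtain ⟨P, hPi⟩ := H1.exists_invariant_sylow φ hcop
    (Or.inl (H1.isSolvable_of_isMulCommutative B)) p
  have h1 := relIndex_le_prod hB φ hcop P.isPGroup' hPi (X ⊓ P) inf_le_right
    fun a x hx => ⟨hX a x hx.1, hPi a x hx.2⟩
  have h2 : (X ⊓ P : Subgroup G).relIndex P ≤ m ^ k := by
    refine h1.trans ((Finset.prod_le_pow_card _ _ m fun b hb => ?_).trans
      (Nat.pow_le_pow_right hm0 ?_))
    · rw [← inf_relIndex_right, inf_assoc, inf_eq_right.2 (inf_le_left : ↑P ⊓ Fx φ b ≤ ↑P),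
        inf_relIndex_right]
      exact (relIndex_le_of_le_right inf_le_right index_ne_zero_of_finite).trans
        (hm b (Finset.ne_of_mem_erase hb))
    · exact (Finset.card_le_univ _).trans (by rwa [← Nat.card_eq_fintype_card])
  have h3 : p ^ j ∣ (X ⊓ P : Subgroup G).relIndex P := by
    have h4 := hj.trans (index_dvd_of_le (inf_le_left : X ⊓ P ≤ X))
    rw [← relIndex_mul_index (inf_le_right : X ⊓ P ≤ (P : Subgroup G))] at h4
    exact (Nat.Coprime.pow_left j ((Nat.Prime.coprime_iff_not_dvd hp).2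
      P.not_dvd_index)).dvd_of_dvd_mul_right h4
  exact Nat.dvd_factorial (pow_pos hp.pos j)
    ((Nat.le_of_dvd (Nat.pos_of_ne_zero index_ne_zero_of_finite) h3).trans h2)

end H25.BFC
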