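/- Job Com of `blueprints/QP.md`. -/
import Cfsg.Agent.H97.QPSpec
import Cfsg.Agent.H32.PairMain

set_option autoImplicit false

namespace H25.QCom

open Cfsg Subgroup H98 H12 H97 H97.NG H97.QP H32.NP MulAction

variable {G : Type*} [Group G] [Finite G] {S P P' W W' : Subgroup G} {x x' z z' s s' t : G}

theorem jcount' {B : Subgroup G} (h : BC B W x) (h' : BC B W' x') (hf : ¬ RR B W ≤ RR B W') (hz : Zc B W z)
    (hz' : Zc B W' z') (hc : W' ≤ centralizer (W : Set G)) : x * z' = z' * x := by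
  refine (oZ_cases h hz (hz'.oZ h')).resolve_right fun hx => ?_
  obtain ⟨A, hA, hA'⟩ : ∃ A ∈ maxEA 2 B, ¬ A ≤ centralizer (W : Set G) := by
    by_contra hn
    push Not at hn
    exact h.nJ (thompsonSubgroupOf_le_iff.2 hn)
  obtain ⟨a, ha, ha'⟩ := SetLike.not_le_iff_exists.1 hA'
  have aB := hA.1 ha
  -- the two lines
  have L : ∀ g ∈ normalizer (RR B W : Set G), cj g W' ≤ RR B W ∧
      Zc (RR B W) (cj g W') (g * z' * g⁻¹) ∧ RR B W ≤ normalizer (cj g W' : Set G) ∧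
      ¬ RR B W ≤ centralizer (cj g W' : Set G) := fun g hg => by
    refine ⟨cj_le_of_le (le_inf h'.le hc) hg, ⟨conj_mem_cj hz'.mem,
      by simpa [mul_inv_eq_one] using hz'.ne, fun b hb => ?_⟩, ?_, fun hn => ?_⟩
    · have := hz'.comm _ (conj_mem_of_mem_normalizer' hg hb).1
      calc b * (g * z' * g⁻¹) = g * (g⁻¹ * b * g * z') * g⁻¹ := by group
        _ = _ := by rw [this]; group
    · rw [← cj_normalizer, ← cj_eq_self hg]
      exact cj_mono g (inf_le_left.trans h'.nB)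
    · rw [← cj_centralizer, ← cj_eq_self hg, cj_le_cj_iff] at hn
      exact hf (le_inf inf_le_left hn)
  obtain ⟨l1, z1, n1, c1⟩ := L x h.nR
  obtain ⟨l2, z2, n2, -⟩ := L (a * x) (mul_mem (B_norm_R h aB) h.nR)
  have f1 := f_cj h'.four x
  have f2 := f_cj h'.four (a * x)
  have hp : x * z' * x⁻¹ ≠ a * x * z' * (a * x)⁻¹ := fun e => by
    have e1 : x * z' * x⁻¹ = z' * z * (x * z * x⁻¹) := by
      calc x * z' * x⁻¹ = x * z' * (z * z) * x⁻¹ := by rw [f_sq h.four hz.mem, mul_one]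
        _ = x * (z' * z) * z * x⁻¹ := by group
        _ = _ := by rw [hx]; group
    have e2 := f_move h.four (h.nB aB) hz.mem hz.ne (hz.comm a aB) ha'
      (conj_mem_of_mem_normalizer h.nx hz.mem) (by simpa [mul_inv_eq_one] using hz.ne)
      fun e => x_move h hz.mem hz.ne (mul_inv_eq_iff_eq_mul.1 e)
    have e3 : a * x * z' * (a * x)⁻¹ = z' * z * (x * z * x⁻¹) * z := by
      calc a * x * z' * (a * x)⁻¹ = a * (x * z' * x⁻¹) * a⁻¹ := by group
        _ = a * z' * z * (x * z * x⁻¹) * a⁻¹ := by rw [e1]; group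
        _ = z' * z * (a * (x * z * x⁻¹) * a⁻¹) := by
          rw [hz'.comm a aB, mul_assoc z', hz.comm a aB]; group
        _ = _ := by rw [e2]; group
    rw [e1, e3] at e
    exact hz.ne (left_eq_mul.1 e)
  have hcj : cj (a * x) W' = cj a (cj x W') := (cj_cj a x W').symm
  have hpj : a * x * z' * (a * x)⁻¹ = a * (x * z' * x⁻¹) * a⁻¹ := by group
  rw [hcj] at l2 z2 n2 f2
  rw [hpj] at z2 hp
  generalize cj x W' = W₁ at l1 z1 n1 c1 l2 z2 n2 f1 f2
  generalize x * z' * x⁻¹ = p at z1 z2 hp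
  have cm : W₁ ≤ centralizer (cj a W₁ : Set G) := fun u hu v hv => by
    rcases f_conj f1 (n1 (l2 hv)) z1.mem z1.ne (z1.comm _ (l2 hv)) hu with e | e
    · exact mul_inv_eq_iff_eq_mul.1 e
    rcases f_conj f2 (n2 (l1 hu)) z2.mem z2.ne (z2.comm _ (l1 hu)) hv with e' | e'
    · exact (mul_inv_eq_iff_eq_mul.1 e').symm
    refine absurd ?_ hp
    calc p = u⁻¹ * (v * u * v⁻¹) := by rw [e]; group
      _ = u * v * u⁻¹ * v⁻¹ := by rw [f_inv f1 hu]; group
      _ = _ := by rw [e', f_comm f2 hv z2.mem, mul_inv_cancel_right]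
  have hU : IsElementaryAbelian 2 (W ⊔ (W₁ ⊔ cj a W₁)) := ea_sup h.four.ea (ea_sup f1.ea f2.ea cm)
    (le_centralizer_iff.1 (sup_le (l1.trans inf_le_right) (l2.trans inf_le_right)))
  have key := offender_le hA hU
    (sup_le h.le (sup_le (l1.trans inf_le_left) (l2.trans inf_le_left)))
  have hle : centralizer (W₁ : Set G) ⊓ centralizer (W : Set G) ⊓ A ≤
      centralizer ((W ⊔ (W₁ ⊔ cj a W₁) : Subgroup G) : Set G) := fun t ht => by
    rw [H98.centralizer_sup, H98.centralizer_sup, ← cj_centralizer]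
    refine ⟨ht.1.2, ht.1.1, mem_cj.2 ?_⟩
    rw [mul_assoc, ea_comm hA.2.1 ht.2 ha, inv_mul_cancel_left]
    exact ht.1.1
  replace key := key.trans (relIndex_le_of_le_left hle (relIndex_pos _ _).ne')
  rw [inf_relIndex_right, relIndex_inf_eq] at key
  have i1 := relIndex_R h hz hA.1
  obtain ⟨w, hw, w1, w2⟩ := f_exists h.four z
  obtain ⟨u, hu, u1, u2⟩ := f_exists f1 p
  have wU : w ∈ W ⊔ (W₁ ⊔ cj a W₁) := mem_sup_left hw
  have uU : u ∈ W ⊔ (W₁ ⊔ cj a W₁) := mem_sup_right (mem_sup_left hu)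
  have hu' : a * u * a⁻¹ ∈ cj a W₁ := conj_mem_cj hu
  have wA : w ∉ centralizer (A : Set G) := fun e =>
    ha' (f_cent h.four hz.mem hz.ne hw w1 w2 (hz.comm a aB) (e a ha))
  by_cases h0 : centralizer (W : Set G) ⊓ A ≤ centralizer (W₁ : Set G)
  · rw [relIndex_eq_one.2 h0, one_mul] at key
    have k1 : ∀ w' ∈ W, w' * u ∉ centralizer (A : Set G) := fun w' hw' e => by
      obtain ⟨r, hr, hr'⟩ := SetLike.not_le_iff_exists.1 c1
      have e1 := f_move f1 (n1 hr) z1.mem z1.ne (z1.comm r hr) hr' hu u1 u2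
      have hw'' := mul_mem (inv_mem (conj_mem_of_mem_normalizer (h.nB aB) hw')) hw'
      have e2 : a * u * a⁻¹ = (a * w' * a⁻¹)⁻¹ * w' * u := by
        calc a * u * a⁻¹ = (a * w' * a⁻¹)⁻¹ * (a * (w' * u)) * a⁻¹ := by group
          _ = _ := by rw [e a ha]; group
      have e3 : r * (a * u * a⁻¹) * r⁻¹ = a * u * a⁻¹ * p := by
        rw [e2, ← mul_assoc r, ← hr.2 _ hw'', mul_assoc _ u p, ← e1]; group
      rcases f_conj f2 (n2 hr) z2.mem z2.ne (z2.comm r hr) hu' with e4 | e4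
      · exact z1.ne (left_eq_mul.1 (e4.symm.trans e3))
      · exact hp (mul_left_cancel (e3.symm.trans e4))
    have := three_le_relIndex wU uU wA (by simpa using k1 1 (one_mem _)) (k1 w hw)
    omega
  · obtain ⟨a₀, ha₀, ha₀'⟩ := SetLike.not_le_iff_exists.1 h0
    have hr : a₀ ∈ RR B W := ⟨hA.1 ha₀.2, ha₀.1⟩
    have i2 : (centralizer (W₁ : Set G)).relIndex (centralizer (W : Set G) ⊓ A) ≤ 2 :=
      relIndex_le_two fun s hs t ht => f_mul_cent f1 (n1 ⟨hA.1 hs.2, hs.1⟩) (n1 ⟨hA.1 ht.2, ht.1⟩)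
        z1.mem z1.ne (z1.comm _ ⟨hA.1 hs.2, hs.1⟩) (z1.comm _ ⟨hA.1 ht.2, ht.1⟩)
    have e1 := f_move f1 (n1 hr) z1.mem z1.ne (z1.comm _ hr) ha₀' hu u1 u2
    have e2 : a₀ * (a * u * a⁻¹) * a₀⁻¹ = a * u * a⁻¹ * (a * p * a⁻¹) := by
      calc a₀ * (a * u * a⁻¹) * a₀⁻¹ = (a₀ * a) * u * (a₀ * a)⁻¹ := by group
        _ = a * (a₀ * u * a₀⁻¹) * a⁻¹ := by rw [ea_comm hA.2.1 ha₀.2 ha]; group
        _ = _ := by rw [e1]; group
    have i3 : 3 ≤ (centralizer {a₀}).relIndex (W ⊔ (W₁ ⊔ cj a W₁)) := by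
      refine three_le_relIndex uU (mem_sup_right (mem_sup_right hu')) (fun e => ?_) (fun e => ?_)
        fun e => ?_
      · rw [← mem_centralizer_singleton_iff.1 e, mul_inv_cancel_right] at e1
        exact z1.ne (left_eq_mul.1 e1)
      · rw [← mem_centralizer_singleton_iff.1 e, mul_inv_cancel_right] at e2
        exact z2.ne (left_eq_mul.1 e2)
      · have e3 : a₀ * (u * (a * u * a⁻¹)) * a₀⁻¹ =
            u * (a * u * a⁻¹) * (p * (a * p * a⁻¹)) := by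
          calc _ = (a₀ * u * a₀⁻¹) * (a₀ * (a * u * a⁻¹) * a₀⁻¹) := by group
            _ = u * (p * (a * u * a⁻¹)) * (a * p * a⁻¹) := by rw [e1, e2]; group
            _ = _ := by rw [← z1.comm _ (l2 hu')]; group
        rw [← mem_centralizer_singleton_iff.1 e, mul_inv_cancel_right] at e3
        exact f_mul_ne_one f1 z1.mem hp (left_eq_mul.1 e3)
    have i4 : 2 ≤ (centralizer (A : Set G)).relIndex
        (centralizer {a₀} ⊓ (W ⊔ (W₁ ⊔ cj a W₁))) :=
      two_le_relIndex ⟨mem_centralizer_singleton_iff.2 (ha₀.1 w hw), wU⟩ wA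
    have i5 := relIndex_inf_eq (centralizer (A : Set G)) (centralizer {a₀}) (W ⊔ (W₁ ⊔ cj a W₁))
    rw [inf_eq_left.2 (centralizer_le (Set.singleton_subset_iff.2 (show a₀ ∈ (A : Set G) from ha₀.2)))]
      at i5
    have i6 := Nat.mul_le_mul i4 i3
    have i7 := Nat.mul_le_mul i2 i1
    omega

omit [Finite G] in
theorem W_le_core (h : PX S P W x z s) : W ≤ pCoreOf 2 P := by
  rw [h.core, H98.centralizer_sup]
  refine le_inf h.W_le (le_inf (ea_le_centralizer h.bc.four.ea) ?_)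
  by_cases e : cj s W = W
  · rw [e]; exact ea_le_centralizer h.bc.four.ea
  · exact (h.ind s h.mem e).2.1

omit [Finite G] in
theorem x_norm (h : PX S P W x z s) (ht : t ∈ S) : x ∈ normalizer (cj t W : Set G) := by
  by_cases e : cj t W = W
  · rw [e]; exact h.bc.nx
  · exact centralizer_le_normalizer _ (h.ind t ht e).2.2

omit [Finite G] in
theorem core_cent (h : PX S P W x z s) (ht : t ∈ S) : pCoreOf 2 P ≤ centralizer (cj t W : Set G) := by
  rw [h.core]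
  refine inf_le_right.trans (H98.centralizer_anti ?_)
  rcases h.two t ht with e | e <;> rw [e]
  exacts [le_sup_left, le_sup_right]

omit [Finite G] in
theorem norm_N (h : PX S P W x z s) :
    P ≤ normalizer ((BT S ⊓ pCoreOf 2 P : Subgroup G) : Set G) := by
  refine h.eq.le.trans (sup_le (H98.le_normalizer_inf (fun _ => nB)
    (le_normalizer_pCoreOf_of_le h.le)) (zpowers_le.2 ?_))
  rw [h.core, H98.centralizer_sup, ← inf_assoc, inf_eq_left.2 (bm_le S), ← inf_assoc]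
  exact H98.le_normalizer_inf (zpowers_le.2 h.bc.nR)
    (H98.le_normalizer_centralizer (zpowers_le.2 (x_norm h h.mem))) (mem_zpowers x)

theorem notle (h : PX S P W x z s) (h' : PX S P' W' x' z' s') (hO : pCoreOf 2 (P ⊔ P') = ⊥) :
    ¬ RR (BT S) W ≤ RR (BT S) W' := fun hn => by
  obtain ⟨b, hb, hb'⟩ := exists_notMem h'.bc
  have e : RR (BT S) W' ≤ RR (BT S) W := fun t ht => ⟨ht.1, by
    by_contra ht'
    exact hb' ((mul_mem_cancel_right ht).1 (hn ⟨mul_mem hb ht.1,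
      mul_mem_R h.bc h.zc hb ht.1 (fun e => hb' (hn ⟨hb, e⟩).2) ht'⟩)).2⟩
  have key : ∀ {P P' W W' : Subgroup G} {x x' z z' s s' : G}, PX S P W x z s →
      PX S P' W' x' z' s' → RR (BT S) W ≤ RR (BT S) W' →
      BT S ⊓ pCoreOf 2 P ≤ BT S ⊓ pCoreOf 2 P' := by
    intro P P' W W' x x' z z' s s' h h' hn
    have k : BT S ⊓ pCoreOf 2 P ≤ centralizer (W' : Set G) := fun c hc =>
      (hn ⟨hc.1, show c ∈ centralizer (W : Set G) by
        simpa only [cj_one] using core_cent h (one_mem S) hc.2⟩).2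
    rw [h'.core, H98.centralizer_sup]
    refine le_inf inf_le_left (le_inf (inf_le_left.trans (bm_le S)) (le_inf k ?_))
    rw [← cj_centralizer, ← cj_eq_self (norm_N h (h.le h'.mem))]
    exact cj_mono _ k
  have e1 := le_antisymm (key h h' hn) (key h' h e)
  refine h.bc.four.ne_bot (le_bot_iff.1 (hO ▸ (le_inf h.bc.le (W_le_core h)).trans
    (le_pCoreOf (h.bc.pB.to_le inf_le_left) (inf_le_right.trans ((pCoreOf_le P).trans le_sup_left))
      (sup_le (norm_N h) (e1 ▸ norm_N h')))))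

theorem res_le_of (h : PX S P W x z s) {H : Subgroup G} (hx : ∀ t ∈ S, x ∈ cj t H) :
    res 2 P ≤ H := by
  have h1 : S ≤ normalizer ((⨅ t : S, cj (t : G) H : Subgroup G) : Set G) := fun u hu =>
    mem_normalizer_of_cj_le (le_iInf fun t => (cj_mono u
      (iInf_le _ (⟨u⁻¹ * t, mul_mem (inv_mem hu) t.2⟩ : S))).trans (by
        rw [cj_cj, mul_inv_cancel_left]))
  refine (res_mono (h.eq.le.trans (sup_le_sup_left (zpowers_le.2 (mem_iInf.2 fun t : S =>
    hx t t.2)) S))).trans ((res_sup_le_right h.syl.isPGroup h1).trans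
      ((iInf_le _ (1 : S)).trans (cj_one H).le))

theorem res_cent (h : PX S P W x z s) (h' : PX S P' W' x' z' s') (hO : pCoreOf 2 (P ⊔ P') = ⊥)
    (hc : ∀ t ∈ S, cj t W' ≤ centralizer (W : Set G)) (ht : t ∈ S) :
    res 2 P ≤ centralizer {t * z' * t⁻¹} := res_le_of h fun u hu => by
  have h1 := h'.cj (mul_mem hu ht)
  have h2 := jcount' h.bc h1.bc (notle h h1 hO) h.zc h1.zc (hc _ (mul_mem hu ht))
  rw [mem_cj, mem_centralizer_singleton_iff]
  calc u⁻¹ * x * u * (t * z' * t⁻¹) = u⁻¹ * (x * (u * t * z' * (u * t)⁻¹)) * u := by group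
    _ = _ := by rw [h2]; group

theorem graph_false.{u} (gr : JobGr.{u}) {G : Type u} [Group G] [Finite G] {S : Subgroup G}
    {P W : Bool → Subgroup G} {x z s : Bool → G} (h : ∀ i, PX S (P i) (W i) (x i) (z i) (s i))
    (hO : ∀ i, pCoreOf 2 (P i ⊔ P (!i)) = ⊥)
    (hc : ∀ i, ∀ t ∈ S, cj t (W i) ≤ centralizer (W (!i) : Set G)) : False := by
  have hS : ∀ i g, ∀ t ∈ S, vtx P i g = vtx P i (g * t) := fun i g t ht =>
    vtx_eq.2 (by simpa using (h i).le ht)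
  have hz : ∀ i, ∀ t ∈ S, res 2 (P i) ≤ centralizer {t * z (!i) * t⁻¹} := fun i t ht =>
    res_cent (h i) (h _) (hO i) (by simpa only [Bool.not_not] using hc (!i)) ht
  have mC : ∀ {i j g g'}, vtx P i g = vtx P j g' → ∃ t ∈ S, cj g' (W j) = cj g (cj t (W i)) := by
    intro i j g g' e
    obtain rfl := vtx_ty e
    obtain ⟨t, ht, r, hr, e1⟩ := (h i).syl.exists_mul_res (vtx_eq.1 e)
    have := res_le_of (h i) (H := normalizer (W i : Set G))
      (fun u hu => by rw [cj_normalizer]; exact x_norm (h i) hu) hr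
    exact ⟨t, ht, by rw [inv_mul_eq_iff_eq_mul.1 e1, ← cj_cj, ← cj_cj, cj_eq_self this]⟩
  have mE : ∀ {i j g g'}, vtx P i g = vtx P j g' →
      ∃ t ∈ S, g' * z (!j) * g'⁻¹ = g * t * z (!i) * (g * t)⁻¹ := by
    intro i j g g' e
    obtain rfl := vtx_ty e
    obtain ⟨t, ht, r, hr, e1⟩ := (h i).syl.exists_mul_res (vtx_eq.1 e)
    have := mem_centralizer_singleton_iff.1 (hz i 1 (one_mem S) hr)
    rw [one_mul, inv_one, mul_one] at this
    refine ⟨t, ht, ?_⟩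
    rw [inv_mul_eq_iff_eq_mul.1 e1, ← mul_assoc g, mul_assoc (g * t), this]
    group
  have nf : ∀ {a b W₀}, (∃ i g, a = vtx P i g ∧ b = vtx P (!i) g) →
      (∃ i g, a = vtx P i g ∧ W₀ = cj g (W i)) →
      ∃ i g, a = vtx P i g ∧ b = vtx P (!i) g ∧ W₀ = cj g (W i) := by
    rintro _ _ _ ⟨i, g, rfl, rfl⟩ ⟨j, g', e, rfl⟩
    obtain ⟨t, ht, e1⟩ := mC e
    exact ⟨i, g * t, hS i g t ht, hS _ g t ht, by rw [e1, cj_cj]⟩
  have uq : ∀ {i j g g'}, vtx P (!i) g = vtx P j g' → g' * z (!j) * g'⁻¹ ∈ cj g (W i) →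
      g' * z (!j) * g'⁻¹ = g * z i * g⁻¹ := by
    intro i j g g' e he
    obtain ⟨t, ht, e1⟩ := mE e
    rw [e1, Bool.not_not, show g * t * z i * (g * t)⁻¹ = g * (t * z i * t⁻¹) * g⁻¹ by group] at he ⊢
    have h1 := (h i).zc_cj (nB ht)
    rw [(h i).zc.eq (h i).bc (conj_mem_cj_iff.1 he) h1.ne h1.comm]
  refine gr G (Σ i : Bool, G ⧸ P i)
    { Adj := fun a b => ∃ i g, a = vtx P i g ∧ b = vtx P (!i) g
      C := fun a => {W₀ | ∃ i g, a = vtx P i g ∧ W₀ = cj g (W i)}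
      E := fun a => {e | ∃ i g, a = vtx P i g ∧ e = g * z (!i) * g⁻¹}
      symm := ?_, ex := ?_, adj_smul := ?_, C_smul := ?_, E_smul := ?_, C_ex := ?_, four := ?_
      two := ?_, disj := ?_, W_le := ?_, W_le' := ?_, Q_le' := ?_, Q_cent := ?_, cent := ?_
      E_ne := ?_, E_ex := ?_, E_uniq := ?_, E_mem := ?_, E_res := ?_, trans := ?_, rot := ?_
      gen := ?_, faith := ?_ } (vtx P true 1)
  · rintro _ _ ⟨i, g, rfl, rfl⟩
    exact ⟨!i, g, rfl, by rw [Bool.not_not]⟩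
  · intro a
    obtain ⟨i, g, rfl⟩ := exists_vtx a
    exact ⟨_, i, g, rfl, rfl⟩
  · rintro k _ _ ⟨i, g, rfl, rfl⟩
    exact ⟨i, k * g, rfl, rfl⟩
  · rintro k _ _ ⟨i, g, rfl, rfl⟩
    exact ⟨i, k * g, rfl, cj_cj _ _ _⟩
  · rintro k _ _ ⟨i, g, rfl, rfl⟩
    exact ⟨i, k * g, rfl, by group⟩
  · intro a
    obtain ⟨i, g, rfl⟩ := exists_vtx a
    exact ⟨_, i, g, rfl, rfl⟩
  · rintro _ _ ⟨i, g, rfl, rfl⟩
    exact f_cj (h i).bc.four g
  · rintro _ _ _ _ ⟨i, g, rfl, rfl⟩ ⟨j, g', e, rfl⟩ ⟨k, g'', e', rfl⟩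
    obtain ⟨t, ht, e1⟩ := mC e
    obtain ⟨t', ht', e2⟩ := mC e'
    rw [e1, e2]
    rcases (h i).two t ht with a | a <;> rcases (h i).two t' ht' with b | b <;> simp [a, b]
  · rintro _ _ _ ⟨i, g, rfl, rfl⟩ ⟨j, g', e, rfl⟩ hne
    obtain ⟨t, ht, e1⟩ := mC e
    rw [e1] at hne ⊢
    rw [← cj_inf, ((h i).ind t ht fun e => hne (by rw [e])).1, cj_bot]
  · rintro _ _ ⟨i, g, rfl, rfl⟩
    rw [stab_vtx, ← cj_pCoreOf]
    exact cj_mono g (W_le_core (h i))
  · intro a b W₀ h1 h2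
    obtain ⟨i, g, -, rfl, rfl⟩ := nf h1 h2
    rw [stab_vtx, ← cj_pCoreOf, (h _).core, H98.centralizer_sup]
    refine cj_mono g (le_inf (h i).W_le (le_inf (by simpa only [cj_one] using hc i 1 (one_mem S)) ?_))
    rw [← cj_centralizer, le_cj_iff]
    exact hc i _ (inv_mem (h _).mem)
  · rintro _ _ ⟨i, g, rfl, rfl⟩
    rw [stab_vtx, stab_vtx, ← cj_pCoreOf]
    exact cj_mono g ((h i).syl.pCoreOf_le.trans (h _).le)
  · rintro _ _ ⟨i, g, rfl, rfl⟩
    rw [stab_vtx, ← cj_pCoreOf, ← cj_centralizer]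
    exact cj_mono g (by simpa only [cj_one] using core_cent (h i) (one_mem S))
  · intro a T hT h1 h2
    obtain ⟨i, g, rfl⟩ := exists_vtx a
    rw [stab_vtx, le_cj_iff] at h1
    obtain ⟨p, hp, h3⟩ := (h i).syl.exists_cj_le (isPGroup_cj g⁻¹ hT) h1
    have e : vtx P i g = vtx P i (g * p⁻¹) := vtx_eq.2 (by simpa using hp)
    have h4 := h2 _ ⟨i, _, e, rfl⟩
    have h5 := h2 _ ⟨i, _, e.trans (hS i _ _ (h i).mem), rfl⟩
    rw [e, stab_vtx, ← cj_pCoreOf, (h i).core, H98.centralizer_sup, cj_inf, cj_inf, cj_centralizer,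
      cj_centralizer, cj_cj]
    refine le_inf ?_ (le_inf h4 h5)
    rwa [le_cj_iff, mul_inv_rev, inv_inv, ← cj_cj]
  · rintro _ _ ⟨i, g, rfl, rfl⟩
    simpa [mul_inv_eq_one] using (h _).zc.ne
  · intro a b W₀ h1 h2
    obtain ⟨i, g, -, rfl, rfl⟩ := nf h1 h2
    exact ⟨_, ⟨!i, g, rfl, rfl⟩, by rw [Bool.not_not]; exact conj_mem_cj (h i).zc.mem⟩
  · rintro a b W₀ _ _ h1 h2 ⟨j, g', e, rfl⟩ ⟨k, g'', e', rfl⟩ m m'
    obtain ⟨i, g, -, rfl, rfl⟩ := nf h1 h2
    rw [uq e m, uq e' m']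
  · rintro _ _ _ ⟨i, g, rfl, rfl⟩ ⟨j, g', e, rfl⟩
    obtain ⟨t, ht, e1⟩ := mE e
    rw [e1, Bool.not_not]
    exact ⟨_, ⟨i, g * t, hS i g t ht, rfl⟩, conj_mem_cj (h i).zc.mem⟩
  · rintro _ _ ⟨i, g, rfl, rfl⟩
    rw [stab_vtx, ← cj_res]
    rintro _ ⟨r, hr, rfl⟩
    have := mem_centralizer_singleton_iff.1 (hz i 1 (one_mem S) hr)
    rw [one_mul, inv_one, mul_one] at this
    refine mem_centralizer_singleton_iff.2 ?_
    show g * r * g⁻¹ * _ = _ * (g * r * g⁻¹)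
    rw [conj_mul, conj_mul, this]
  · rintro _ _ _ ⟨i, g, rfl, rfl⟩ ⟨j, g', e, rfl⟩
    obtain rfl := vtx_ty e
    obtain ⟨t, ht, r, hr, e1⟩ := (h i).syl.exists_mul_res (inv_mem (vtx_eq.1 e))
    refine ⟨g * r⁻¹ * g⁻¹, by rw [stab_vtx, ← cj_res]; exact conj_mem_cj (inv_mem hr), ?_⟩
    rw [smul_vtx, inv_mul_cancel_right, hS _ _ _ (inv_mem ht), mul_assoc, ← mul_inv_rev, ← e1,
      inv_inv, mul_inv_cancel_left]
  · rintro _ _ ⟨i, g, rfl, rfl⟩
    refine ⟨g * x i * g⁻¹, by rw [stab_vtx]; exact conj_mem_cj (h i).x_mem,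
      by rw [← cj_normalizer]; exact conj_mem_cj (h i).bc.nx, eq_bot_iff.2 ?_, ?_⟩
    · rintro _ ⟨⟨w, hw, rfl⟩, h1⟩
      have h2 : g * w * g⁻¹ * (g * x i * g⁻¹) = g * x i * g⁻¹ * (g * w * g⁻¹) :=
        mem_centralizer_singleton_iff.1 h1
      rw [conj_mul, conj_mul, mul_left_inj, mul_right_inj] at h2
      by_contra h3
      exact x_move (h i).bc hw (fun e => h3 (by rw [e, map_one]; exact one_mem _)) h2.symm
    · rintro _ ⟨j, g', e, rfl⟩ hne
      obtain ⟨t, ht, e1⟩ := mC e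
      rw [e1] at hne ⊢
      rw [← cj_centralizer]
      exact conj_mem_cj ((h i).ind t ht fun e => hne (by rw [e])).2.2
  · rintro a b W₀ _ y h1 h2 ⟨j, g', e, rfl⟩ m hy hn hm
    obtain ⟨i, g, rfl, rfl, rfl⟩ := nf h1 h2
    rw [uq e m] at hm
    rw [stab_vtx] at hy
    rw [← cj_normalizer] at hn
    rw [stab_vtx, stab_vtx, cj_le_iff]
    refine ((h i).gen _ ?_ ?_ (g⁻¹ * y * g) ?_ (mem_cj.1 hn) fun c => hm ?_).ge
    · rw [← cj_le_iff, ← cj_inf]
      exact (cj_mono g (le_inf (h i).le (h _).le)).trans le_sup_left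
    · rw [← le_cj_iff]
      exact sup_le inf_le_left (zpowers_le.2 hy)
    · simpa using conj_mem_cj (g := g⁻¹) (mem_sup_right (mem_zpowers y))
    · calc y * (g * z i * g⁻¹) = g * (g⁻¹ * y * g * z i) * g⁻¹ := by group
        _ = _ := by rw [c]; group
  · rintro _ _ ⟨i, g, rfl, rfl⟩ N h1 h2 h3 h4
    rw [stab_vtx] at h2 h3 h4
    rw [le_cj_iff] at h2
    rw [cj_le_iff, cj_normalizer] at h3 h4
    exact cj_eq_bot_iff.1 (le_bot_iff.1 (hO i ▸ le_pCoreOf (isPGroup_cj _ h1)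
      (h2.trans le_sup_left) (sup_le h3 h4)))

theorem jobCom.{u} : JobCom.{u} := by
  intro gr G _ _ S P P' W W' x x' z z' s s' h h' hO hc
  refine graph_false gr (P := fun i => cond i P P') (W := fun i => cond i W W')
    (x := fun i => cond i x x') (z := fun i => cond i z z') (s := fun i => cond i s s')
    (Bool.rec h' h) (Bool.rec (sup_comm P P' ▸ hO) hO) (Bool.rec (fun t ht => ?_) hc)
  show cj t W' ≤ centralizer (W : Set G)
  rw [le_centralizer_iff, ← cj_centralizer, le_cj_iff]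
  exact hc _ (inv_mem ht)

end H25.QCom
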