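import Cfsg.Agent.H25.Cert

/-! Stabilisers of pairs of totally singular planes in `SU_4(2)`, `SU_4(3)`, `Sp_4(3)`. -/

set_option linter.unusedSectionVars false
set_option linter.style.haveILetI false

namespace H25

open scoped MatrixGroups Matrix Kronecker
open Cfsg.Geo Module

variable {ι : Type} [Fintype ι] [DecidableEq ι] {F : Type*} [Field F]
variable {σ : F →+* F} {ε : F} {f : (ι → F) → (ι → F) → F}

theorem exists_dual_coords (hf : IsSes σ ε f) {m : ℕ} {D : Fin 2 → Submodule F (ι → F)}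
    (hD : IsMDecomposition m D) (ht : ∀ i, IsTotallySingularFor f (D i)) :
    ∃ (e : ι ≃ Fin m × Fin 2) (P : GL ι F), (∀ x y, f (H19.trV e P x) (H19.trV e P y) =
      ∑ j, (x (j, 0) * σ (y (j, 1)) + ε * (x (j, 1) * σ (y (j, 0))))) ∧
      (∀ i x, H19.trV e P x ∈ D i ↔ ∀ p : Fin m × Fin 2, p.2 ≠ i → x p = 0) := by
  let b := finBasisOfFinrankEq F _ (hD.finrank_eq 0)
  have hli := b.linearIndependent.map' (D 0).subtype (D 0).ker_subtype
  have htop : D 0 ⊔ D 1 = ⊤ := by
    rw [eq_top_iff, ← hD.iSup_eq_top]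
    exact iSup_le fun i => by fin_cases i <;> simp
  have key : ∀ j, ∃ w ∈ D 1, ∀ k, f w (b k) = ε * (Pi.single j 1 : Fin m → F) k := fun j => by
    obtain ⟨v, hv⟩ := hf.exists_forall_eq hli fun k => ε * (Pi.single j 1 : Fin m → F) k
    obtain ⟨u, hu, w, hw, rfl⟩ := Submodule.mem_sup.1 (htop ▸ Submodule.mem_top : v ∈ D 0 ⊔ D 1)
    refine ⟨w, hw, fun k => ?_⟩
    have := hv k
    simp only [Function.comp_apply, Submodule.subtype_apply] at this
    rw [← this, hf.add_left, ht 0 u hu _ (b k).2, zero_add]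
  choose w hw hw' using key
  have hli' : LinearIndependent F fun j => (⟨w j, hw j⟩ : D 1) := by
    refine LinearIndependent.of_comp (D 1).subtype (Fintype.linearIndependent_iff.2 fun c hc k => ?_)
    have := congrArg (f · (b k)) hc
    simp only [hf.sum_left, hf.smul_left, hf.zero_left, Function.comp_apply, Submodule.subtype_apply,
      hw', Pi.single_apply] at this
    simpa [hf.eps_ne_zero] using this
  haveI : Nonempty (Fin m) := ⟨⟨0, hD.pos⟩⟩
  let b' := basisOfLinearIndependentOfCardEqFinrank hli' (by simp [hD.finrank_eq])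
  obtain ⟨e, P, h1, h2⟩ := exists_tr_of_bases hD (Fin.cons b (Fin.cons b' fun i => i.elim0))
  have h3 : ∀ j, H19.trV e P (Pi.single (j, 0) 1) = b j := fun j => h1 j 0
  have h4 : ∀ j, H19.trV e P (Pi.single (j, 1) 1) = w j := fun j => (h1 j 1).trans (by
    change ((b' j : D 1) : ι → F) = _
    simp [b'])
  refine ⟨e, P, fun x y => ?_, h2⟩
  have h5 : ∀ j k, f (b j) (w k) = (Pi.single k 1 : Fin m → F) j := fun j k => by
    rw [hf.herm, hw', map_mul, hf.map_eps, ← mul_assoc, hf.eps_mul_self, one_mul, Pi.single_apply]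
    split_ifs <;> simp
  rw [(hf.comp (H19.trV e P)).eq_formOfGram x y]
  simp only [formOfGram, gramMatrix, Fintype.sum_prod_type, Fin.sum_univ_two, h3, h4, h5, hw',
    ht 0 _ (b _).2 _ (b _).2, ht 1 _ (hw _) _ (hw _), Pi.single_apply, mul_zero, zero_mul,
    zero_add, add_zero, mul_ite, ite_mul, Finset.sum_ite_eq, Finset.sum_ite_eq', Finset.mem_univ,
    if_true]
  exact Finset.sum_congr rfl fun j _ => by ring

theorem perm_fin_two (τ : Equiv.Perm (Fin 2)) : τ = 1 ∨ τ = Equiv.swap 0 1 := by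
  revert τ; decide

theorem dual_rel (hf : IsSes σ ε f) {m : ℕ} {e : ι ≃ Fin m × Fin 2} {P g : GL ι F}
    (hP : ∀ x y, f (H19.trV e P x) (H19.trV e P y) =
      ∑ j, (x (j, 0) * σ (y (j, 1)) + ε * (x (j, 1) * σ (y (j, 0))))) (hg : IsIso f g)
    {τ : Equiv.Perm (Fin 2)} {a : Fin 2 → Matrix (Fin m) (Fin m) F}
    (h : g.val = H19.tr e P (bmono τ a)) :
    (a 0)ᵀ * (a 1).map σ = (if τ = 1 then 1 else ε) • (1 : Matrix (Fin m) (Fin m) F) := by
  ext j k
  have := hg (H19.trV e P (Pi.single (j, 0) 1)) (H19.trV e P (Pi.single (k, 1) 1))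
  rw [h, H19.tr_mulVec, H19.tr_mulVec, hP, hP] at this
  have h1 := hf.eps_mul_self
  rcases perm_fin_two τ with rfl | rfl
  · simpa [bmono, Matrix.mul_apply, Pi.single_apply, Matrix.one_apply, eq_comm] using this
  · have h2 : ε * ∑ x, a 0 x j * σ (a 1 x k) = if j = k then 1 else 0 := by
      simpa [bmono, Pi.single_apply, eq_comm, Finset.mul_sum] using this
    rw [if_neg (by decide)]
    simp only [Matrix.mul_apply, Matrix.transpose_apply, Matrix.map_apply, Matrix.smul_apply,
      Matrix.one_apply, smul_eq_mul, ← h2]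
    rw [← mul_assoc, h1, one_mul]

theorem TvGrp.not_le_simAlt {hf : IsSes σ 1 f} {Ω : Subgroup (GL ι F)} (h : TvGrp hf Ω)
    (hσ : σ ≠ RingHom.id F) {ω : (ι → F) → (ι → F) → F} (hω : IsSymplecticForm ω) {u v : ι → F}
    (hu : f u u = 0) (hv : f v v = 0) (huv : f u v = 0) (hu0 : u ≠ 0) (hv0 : v ∉ F ∙ u) :
    ¬ Ω ≤ similarityGroup ω := by
  intro hle
  have hw := isSes_of_symplectic hω
  obtain ⟨c, hc0, hc⟩ := h.exc
  have key : ∀ v, f v v = 0 → ∀ x y, f y v * ω x v = f x v * ω y v := by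
    intro v hv x y
    by_cases h0 : v = 0
    · simp [h0, hw.zero_right]
    obtain ⟨l, hl⟩ := hle (h.mem v hv c hc)
    simp only [ftv_mulVec, hw.add_left, hw.add_right, hw.smul_left, hw.smul_right, hω.alternating,
      RingHom.id_apply] at hl
    obtain ⟨z, hz⟩ := hw.exists_ne_zero h0
    have h1 := hl z v
    rw [hv, hω.alternating] at h1
    have h2 : (l : F) = 1 := mul_right_cancel₀ hz (by linear_combination -h1)
    have h3 := hl x y
    rw [h2, hω.skew v y] at h3
    exact mul_left_cancel₀ hc0 (by linear_combination h3)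
  obtain ⟨l, hl⟩ := H59.exists_not_fixed hσ
  have h1 : ∀ x y, f y v * ω x u = f x v * ω y u := by
    intro x y
    have a : ∀ l : F, σ l * (f y v * ω x u - f x v * ω y u) +
        l * (f y u * ω x v - f x u * ω y v) = 0 := fun l => by
      have := key (u + l • v) (by simp [hf.add_left, hf.add_right, hf.smul_left, hf.smul_right, hu,
        hv, huv, hf.eq_zero_comm.1 huv]) x y
      simp only [hf.add_right, hf.smul_right, hw.add_right, hw.smul_right, RingHom.id_apply] at this
      linear_combination this - key u hu x y - l * σ l * key v hv x y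
    have a1 := a 1
    rw [map_one] at a1
    exact sub_eq_zero.1 (mul_left_cancel₀ (sub_ne_zero.2 hl) (by linear_combination a l - l * a1))
  obtain ⟨y, hy⟩ := hf.exists_ne_zero (v := v) fun h0 => hv0 (h0 ▸ Submodule.zero_mem _)
  have h2 : ω y v • u - ω y u • v = 0 := hw.nondeg _ fun x => by
    rw [hw.sub_right, hw.smul_right, hw.smul_right]
    exact mul_left_cancel₀ hy (by
      simp only [RingHom.id_apply]
      linear_combination ω y v * h1 x y - ω y u * key v hv x y)
  have h3 : ω y u = 0 := by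
    by_contra h3
    refine hv0 (Submodule.mem_span_singleton.2 ⟨ω y v / ω y u, ?_⟩)
    rw [div_eq_inv_mul, mul_smul, sub_eq_zero.1 h2, smul_smul, inv_mul_cancel₀ h3, one_smul]
  refine hu0 (hw.nondeg u fun x => mul_left_cancel₀ hy ?_)
  rw [h1, h3, mul_zero, mul_zero]

theorem ftv_mem_sim (hf : IsSes σ ε f) {v : ι → F} (hv : f v v = 0) (c : F)
    {ω : (ι → F) → (ι → F) → F} (hω : IsSymplecticForm ω) {a : F} (h : ∀ x, f x v = a * ω x v) :
    ftv hf v hv c ∈ similarityGroup ω := by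
  have hw := isSes_of_symplectic hω
  refine ⟨1, fun x y => ?_⟩
  simp only [ftv_mulVec, hw.add_left, hw.add_right, hw.smul_left, hw.smul_right, hω.alternating,
    RingHom.id_apply, h, hω.skew v y, Units.val_one]
  ring

theorem not_max_ts_SU4 [Fintype F] {q : ℕ} (hF : Fintype.card F = q ^ 2) (hq : q ≤ 3)
    (hf : IsSes (H59.frob hF) 1 f) {Ω : Subgroup (GL ι F)}
    (hΩ : ∀ g, g ∈ Ω ↔ IsIso f g ∧ g ∈ specialLinear ι F) {D : Fin 2 → Submodule F (ι → F)}
    (hD : IsMDecomposition 2 D) (ht : ∀ i, IsTotallySingularFor f (D i)) :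
    ¬ IsMaximalIn Ω (decompositionStabilizer D ⊓ Ω) := by
  have hσ := H59.frob_ne_id hF
  obtain ⟨e, P, hP1, hP2⟩ := exists_dual_coords hf hD ht
  have hT : TvGrp hf Ω := tvGrp_herm hf hσ (by rw [card_eq_of_decomp hD]; norm_num)
    fun g h1 h2 => (hΩ g).2 ⟨h1, h2⟩
  have hω := (isSes_blockAlt.comp (H19.trV e P).symm).isSymplecticForm fun v => blockAlt_self _
  obtain ⟨a, ha⟩ := H59.exists_norm_eq' hσ hf.invol (μ := -1) (by simp)
  have ha0 : a ≠ 0 := by rintro rfl; simp at ha
  obtain ⟨c, hc0, hc⟩ := hT.exc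
  have hv : f (H19.trV e P (Pi.single (0, 0) 1 - Pi.single (1, 1) (H59.frob hF a)))
      (H19.trV e P (Pi.single (0, 0) 1 - Pi.single (1, 1) (H59.frob hF a))) = 0 := by
    rw [hP1]; simp
  refine not_max_of_between (fun g hg => ?_) (hT.not_le_simAlt hσ hω
    (u := H19.trV e P (Pi.single (0, 0) 1)) (v := H19.trV e P (Pi.single (1, 0) 1))
    (by simp [hP1]) (by simp [hP1]) (by simp [hP1]) (by simp) fun hm => ?_) (hT.mem _ hv c hc)
    (ftv_mem_sim hf hv c hω (a := a) fun x => ?_) fun hm => ?_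
  · obtain ⟨τ, b, hb⟩ := exists_bmono hP2 hg.1
    obtain ⟨h1, h2⟩ := (hΩ g).1 hg.2
    have h3 := congrArg Matrix.det (dual_rel hf hP1 h1 hb)
    rw [ite_self, one_smul, Matrix.det_mul, Matrix.det_transpose, ← RingHom.mapMatrix_apply,
      ← RingHom.map_det, Matrix.det_one] at h3
    rw [mem_specialLinear, hb, det_tr, det_bmono, Fin.prod_univ_two, ← Int.cast_pow,
      ← Units.val_pow_eq_pow_val, Int.units_sq, Units.val_one, Int.cast_one, one_mul] at h2
    have h4 := det_ne_zero_of_bmono hb 0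
    have h5 := det_ne_zero_of_bmono hb 1
    have h6 := (H59.pow_q_eq_self_iff hF h5).1 (mul_left_cancel₀ h4 (h3.trans h2.symm))
    have h7 : (b 1).det * (b 1).det = 1 := by
      have := H59.two_le_q hF
      interval_cases q
      · rw [show (b 1).det = 1 by simpa using h6, one_mul]
      · simpa [sq] using h6
    refine ⟨Units.mk0 _ h5, fun u w => ?_⟩
    simp only [hb, trV_symm_tr_mulVec]
    refine blockAlt_bmono τ b (fun i => ?_) _ _
    fin_cases i
    · exact mul_right_cancel₀ h5 (h2.trans h7.symm)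
    · rfl
  · obtain ⟨l, hl⟩ := Submodule.mem_span_singleton.1 hm
    rw [← map_smul] at hl
    simpa using congrFun ((H19.trV e P).injective hl) (1, 0)
  · obtain ⟨y, rfl⟩ := (H19.trV e P).surjective x
    rw [hP1]
    simp [blockAlt, hf.invol]
    linear_combination y (0, 1) * ha
  · refine add_not_mem_iUnion hD.indep (i := 0) (j := 1) (by decide)
      (u := H19.trV e P (Pi.single (1, 0) 1 - Pi.single (0, 0) (c * a)))
      (v := H19.trV e P (Pi.single (1, 1) (c * a * H59.frob hF a))) ((hP2 _ _).2 ?_)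
      ((hP2 _ _).2 ?_) ?_ (by simp [hc0, ha0]) ?_
    · rintro ⟨i, j⟩ hj; fin_cases j <;> simp_all
    · rintro ⟨i, j⟩ hj; fin_cases j <;> simp_all
    · rw [Ne, LinearEquiv.map_eq_zero_iff]
      exact fun h0 => by simpa using congrFun h0 (1, 0)
    · convert pres_decomp D _ hm.1 (H19.trV e P (Pi.single (1, 0) 1))
        (Set.mem_iUnion.2 ⟨0, (hP2 _ _).2 ?_⟩) using 1
      · rw [ftv_mulVec, hP1, ← map_smul, ← map_add, ← map_add]
        congr 1
        ext ⟨i, j⟩
        fin_cases i <;> fin_cases j <;> simp [hf.invol]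
      · rintro ⟨i, j⟩ hj; fin_cases j <;> simp_all

theorem ts_le_decomp_Sp43 [Fintype F] (hF : Fintype.card F = 3) {f : (ι → F) → (ι → F) → F}
    (hf : IsSes (RingHom.id F) (-1) f) {D : Fin 2 → Submodule F (ι → F)}
    (hD : IsMDecomposition 2 D) (ht : ∀ i, IsTotallySingularFor f (D i)) :
    ∃ D' : Fin 2 → Submodule F (ι → F), IsNondegenerateMDecomposition f 2 D' ∧
      ∀ g ∈ decompositionStabilizer D, IsIso f g → g ∈ decompositionStabilizer D' := by
  have h3 := three_eq_zero_of_card_three hF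
  obtain ⟨e, P, hP1, hP2⟩ := exists_dual_coords hf hD ht
  let T : F → (Fin 2 → F) →ₗ[F] (Fin 2 × Fin 2 → F) := fun s =>
    { toFun := fun u p => ![![u 0, -(s * u 1)], ![u 1, s * u 0]] p.1 p.2
      map_add' := fun u v => by ext ⟨i, j⟩; fin_cases i <;> fin_cases j <;> simp <;> ring
      map_smul' := fun c u => by ext ⟨i, j⟩; fin_cases i <;> fin_cases j <;> simp <;> ring }
  let L : F → (Fin 2 → F) →ₗ[F] (ι → F) := fun s => (H19.trV e P).toLinearMap.comp (T s)
  have hL : ∀ s s' u u', f (L s u) (L s' u') = -(s + s') * (u 0 * u' 1 - u 1 * u' 0) := by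
    intro s s' u u'
    simp [L, T, hP1]; ring
  have hs : ∀ i : Fin 2, ![(1 : F), -1] i * ![(1 : F), -1] i = 1 := fun i => by
    fin_cases i <;> simp
  have hD' : IsNondegenerateMDecomposition f 2 fun i => LinearMap.range (L (![1, -1] i)) := by
    refine isNondegMDec hf le_rfl two_pos (fun i => ?_) (fun i => hf.nondegOn ?_)
      (fun i j hij => ?_) (card_eq_of_decomp hD)
    · rw [LinearMap.finrank_range_of_inj]
      · simp
      · intro u u' h
        have := (H19.trV e P).injective h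
        ext k
        fin_cases k
        · exact congrFun this (0, 0)
        · exact congrFun this (1, 0)
    · rintro _ ⟨u, rfl⟩ hu
      by_contra hc
      push Not at hc
      have a0 := hc _ ⟨![1, 0], rfl⟩
      have a1 := hc _ ⟨![0, 1], rfl⟩
      rw [hL] at a0 a1
      simp only [Matrix.cons_val_zero, Matrix.cons_val_one] at a0 a1
      refine hu ?_
      rw [show u = 0 from funext fun k => ?_, map_zero]
      fin_cases k
      · change u 0 = 0
        linear_combination -![(1 : F), -1] i * a1 + (2 * u 0) * hs i + u 0 * h3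
      · change u 1 = 0
        linear_combination ![(1 : F), -1] i * a0 + (2 * u 1) * hs i + u 1 * h3
    · rintro _ ⟨u, rfl⟩ _ ⟨u', rfl⟩
      rw [hL]
      fin_cases i <;> fin_cases j <;> simp_all
  refine ⟨_, hD', fun g hg hi => mem_decomp_of_maps hD'.decomp fun i => ?_⟩
  obtain ⟨τ, a, ha⟩ := exists_bmono hP2 hg
  have h1 := dual_rel hf hP1 hi ha
  have hδ := mul_self_eq_one_of_card_three hF (det_ne_zero_of_bmono ha 0)
  have hη : (if τ = 1 then (1 : F) else -1) * (if τ = 1 then (1 : F) else -1) = 1 := by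
    split_ifs <;> simp
  set η := (if τ = 1 then (1 : F) else -1)
  have e00 := congrFun (congrFun h1 0) 0
  have e01 := congrFun (congrFun h1 0) 1
  have e10 := congrFun (congrFun h1 1) 0
  have e11 := congrFun (congrFun h1 1) 1
  simp [Matrix.mul_apply] at e00 e01 e10 e11
  rw [Matrix.det_fin_two] at hδ
  set δ := a 0 0 0 * a 0 1 1 - a 0 0 1 * a 0 1 0 with hd
  have r00 : a 1 0 0 = η * δ * a 0 1 1 := by
    linear_combination δ * a 0 1 1 * e00 - δ * a 0 1 0 * e10 - a 1 0 0 * hδ
  have r01 : a 1 0 1 = -(η * δ * a 0 1 0) := by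
    linear_combination δ * a 0 1 1 * e01 - δ * a 0 1 0 * e11 - a 1 0 1 * hδ
  have r10 : a 1 1 0 = -(η * δ * a 0 0 1) := by
    linear_combination δ * a 0 0 0 * e10 - δ * a 0 0 1 * e00 - a 1 1 0 * hδ
  have r11 : a 1 1 1 = η * δ * a 0 0 0 := by
    linear_combination δ * a 0 0 0 * e11 - δ * a 0 0 1 * e01 - a 1 1 1 * hδ
  have hj : ∀ s : F, s * s = 1 → ∃ j : Fin 2, ![(1 : F), -1] j = s := fun s hs => by
    rcases mul_self_eq_one_iff.1 hs with rfl | rfl
    exacts [⟨0, rfl⟩, ⟨1, rfl⟩]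
  have hs' := hs i
  set s := ![(1 : F), -1] i
  have hss : s * η * δ * (s * η * δ) = 1 := by
    linear_combination η * η * δ * δ * hs' + δ * δ * hη + hδ
  rcases perm_fin_two τ with rfl | rfl
  · obtain ⟨j, hj⟩ := hj _ hss
    refine ⟨j, ?_⟩
    rintro _ ⟨u, rfl⟩
    refine ⟨a 0 *ᵥ u, ?_⟩
    change H19.trV e P _ = _ *ᵥ H19.trV e P _
    rw [ha, H19.tr_mulVec, hj]
    congr 1
    ext ⟨k, l⟩
    fin_cases k <;> fin_cases l <;>
      simp [T, bmono, Matrix.mulVec, dotProduct, Fintype.sum_prod_type, r00, r01, r10, r11] <;> ring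
  · obtain ⟨j, hj⟩ := hj (-(s * η * δ)) (by linear_combination hss)
    refine ⟨j, ?_⟩
    rintro _ ⟨u, rfl⟩
    refine ⟨(s * η * δ) • ![-(a 0 *ᵥ u) 1, (a 0 *ᵥ u) 0], ?_⟩
    change H19.trV e P _ = _ *ᵥ H19.trV e P _
    rw [ha, H19.tr_mulVec, hj]
    congr 1
    ext ⟨k, l⟩
    fin_cases k <;> fin_cases l <;>
      simp [T, bmono, Matrix.mulVec, dotProduct, Fintype.sum_prod_type, r00, r01, r10, r11]
    · ring
    · linear_combination (a 0 0 0 * u 0 + a 0 0 1 * u 1) * hss
    · ring
    · linear_combination (a 0 1 0 * u 0 + a 0 1 1 * u 1) * hss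

end H25
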