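import Cfsg.Agent.H25.RowTs
import Cfsg.Agent.H25.Singer
import Cfsg.Agent.H62.C3Mat
import Cfsg.Agent.H59.Witt

/-! `GU₂(8).3 ∩ SU₆(2)` is not maximal in `SU₆(2)`. -/

set_option autoImplicit false

namespace H25

open scoped MatrixGroups Matrix
open Cfsg.Geo Module

universe u

variable {ι : Type} [Fintype ι] [DecidableEq ι] {F : Type u} [Field F]

theorem det_sq_of_alt {ε : F} {ω : (ι → F) → (ι → F) → F} (hω : IsSes (RingHom.id F) ε ω)
    {g E : Matrix ι ι F} (h : ∀ u v, ω (g *ᵥ u) (g *ᵥ v) = ω (E *ᵥ u) v) : g.det ^ 2 = E.det := by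
  have h1 : gᵀ * gramMatrix ω * g.map (RingHom.id F) =
      Eᵀ * gramMatrix ω * (1 : Matrix ι ι F).map (RingHom.id F) := by
    ext a b
    refine (formOfGram_single (σ := RingHom.id F) _ a b).symm.trans
      (Eq.trans ?_ (formOfGram_single (σ := RingHom.id F) _ a b))
    rw [← formOfGram_mulVec, ← formOfGram_mulVec, ← hω.eq_formOfGram, ← hω.eq_formOfGram, h,
      Matrix.one_mulVec]
  have h2 := congrArg Matrix.det h1
  simp only [Matrix.det_mul, Matrix.det_transpose, RingHom.coe_id, Matrix.map_id,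
    Matrix.det_one] at h2
  exact mul_right_cancel₀ hω.det_gram_ne_zero (by linear_combination h2)

theorem exists_aut_of_normK {K V : Type*} [Field K] [Finite K] [Algebra F K] [AddCommGroup V]
    [Module F V] [Module K V] [IsScalarTower F K V] [Nontrivial V] {e : V ≃ₗ[F] V}
    (h : H62.NormK K e) : ∃ τ : K ≃ₐ[F] K, ∀ (k : K) v, e (k • v) = τ k • e v := by
  choose t ht using h
  obtain ⟨v, hv⟩ := exists_ne (0 : V)
  have inj : ∀ a b : K, a • e v = b • e v → a = b := fun a b h =>
    smul_left_injective K (by simpa using hv) h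
  let φ : K →ₐ[F] K :=
    { toFun := t
      map_one' := inj _ _ (by rw [← ht, one_smul, one_smul])
      map_mul' := fun a b => inj _ _ (by rw [← ht, mul_smul, ht, ht, mul_smul])
      map_zero' := inj _ _ (by rw [← ht, zero_smul, zero_smul, map_zero])
      map_add' := fun a b => inj _ _ (by rw [← ht, add_smul, add_smul, map_add, ht, ht])
      commutes' := fun c => inj _ _ (by rw [← ht, algebraMap_smul, algebraMap_smul, map_smul]) }
  exact ⟨AlgEquiv.ofBijective φ (Finite.injective_iff_bijective.1 φ.toRingHom.injective), ht⟩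

/-- the symplectic form preserved by `GU₂(8).3 ∩ SU₆(2)` -/
theorem exists_alt_SU62 [Fintype F] (hF : Fintype.card F = 2 ^ 2) (hι : Fintype.card ι = 6)
    {f : (ι → F) → (ι → F) → F} (hf : IsSes (H59.frob hF) 1 f) {K : Type*} [Field K] [Finite K]
    [Algebra F K] [Module K (ι → F)] [IsScalarTower F K (ι → F)] (hK : finrank F K = 3)
    (hs : ∀ (k : K) u v, f (k • u) v = f u (k ^ 8 • v)) :
    ∃ ω : (ι → F) → (ι → F) → F, IsSymplecticForm ω ∧
      (∀ g : GL ι F, H62.NormK K (H62.toLE g) → IsIso f g → g.val.det = 1 →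
        g ∈ similarityGroup ω) ∧
      ∃ v, v ≠ 0 ∧ (∀ k l : K, f (k • v) (l • v) = 0) ∧ ∀ x, f x v = ω x v := by
  haveI : Fintype K := Fintype.ofFinite K
  haveI : FiniteDimensional F K := Module.Finite.of_finite
  haveI : FiniteDimensional K (ι → F) := Module.Finite.of_finite
  haveI : Nonempty ι := Fintype.card_pos_iff.1 (by omega)
  have hc : Fintype.card K = 8 ^ 2 := by rw [card_eq_pow_finrank (K := F), hK, hF]; rfl
  have h64 : ∀ x : K, x ^ 64 = x := fun x => by
    have := FiniteField.pow_card x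
    rwa [hc] at this
  haveI : Fact (Nat.Prime 2) := ⟨Nat.prime_two⟩
  haveI : CharP K 2 := charP_of_card_eq_prime_pow (p := 2) (f := 6) (by rw [hc]; norm_num)
  have h2 : (2 : K) = 0 := CharP.cast_eq_zero K 2
  have hd : finrank K (ι → F) = 2 := by
    have := finrank_mul_finrank F K (ι → F)
    rw [hK, finrank_fintype_fun_eq_card, hι] at this
    omega
  let T := Algebra.trace F K
  have hT : ∀ x, algebraMap F K (T x) = x + x ^ 4 + x ^ 16 := fun x => by
    rw [FiniteField.algebraMap_trace_eq_sum_pow, hK, Nat.card_eq_fintype_card, hF]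
    simp [Finset.sum_range_succ]
  have hnd := traceForm_nondegenerate F K
  have ext : ∀ x y : K, (∀ k, T (k * x) = T (k * y)) → x = y := fun x y h =>
    sub_eq_zero.1 (hnd.2 _ fun k => by
      rw [Algebra.traceForm_apply, mul_sub, map_sub]; exact sub_eq_zero.2 (h k))
  let s := H59.frob hc
  have hTs : ∀ x, T (s x) = H59.frob hF (T x) := fun x => (algebraMap F K).injective (by
    rw [H59.frob_apply, H59.frob_apply, map_pow (algebraMap F K), hT, hT, add_pow_char,
      add_pow_char]
    linear_combination x ^ 64 * h64 x + x * h64 x)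
  have hs' : ∀ (k : K) u v, f u (k • v) = f (s k • u) v := fun k u v => by
    rw [hs, H59.frob_apply, ← pow_mul, h64]
  obtain ⟨β, hβ⟩ : ∃ β : (ι → F) → (ι → F) → K, ∀ x y k, T (k * β x y) = f (k • y) x := by
    refine ⟨fun x y => ((Algebra.traceForm F K).toDual hnd).symm
      { toFun := fun k => f (k • y) x
        map_add' := fun a b => by rw [add_smul, hf.add_left]
        map_smul' := fun c a => by rw [smul_assoc, hf.smul_left]; rfl }, fun x y k => ?_⟩
    rw [mul_comm]
    exact LinearMap.BilinForm.apply_toDual_symm_apply (hB := hnd) _ k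
  let B : (ι → F) →ₛₗ[s] (ι → F) →ₗ[K] K := LinearMap.mk₂'ₛₗ s (RingHom.id K) β
    (fun x y z => ext _ _ fun k => by rw [mul_add, map_add, hβ, hβ, hβ, hf.add_right])
    (fun c x y => ext _ _ fun k => by
      rw [hβ, smul_eq_mul, ← mul_assoc, hβ, hs', smul_smul, mul_comm])
    (fun x y z => ext _ _ fun k => by rw [mul_add, map_add, hβ, hβ, hβ, smul_add, hf.add_left])
    (fun c x y => ext _ _ fun k => by
      rw [hβ, RingHom.id_apply, smul_eq_mul, ← mul_assoc, hβ, smul_smul])
  have hB : ∀ x y k, T (k * B x y) = f (k • y) x := hβ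
  have hH : H59.IsHerm B := ⟨H59.frob_ne_id hc, H59.frob_frob hc, fun x y => ext _ _ fun k => by
    rw [hB, hf.herm, one_mul, hs', ← hB, ← hTs, map_mul s, H59.frob_frob hc], fun x h =>
      hf.nondeg x fun y => by rw [← one_smul K y, ← hB, h, mul_zero, map_zero]⟩
  obtain ⟨b', hb'⟩ := hH.exists_orthonormal_basis
  let b : Basis (Fin 2) K (ι → F) := b'.reindex (finCongr hd)
  have hb : ∀ i j, B (b i) (b j) = if i = j then 1 else 0 := fun i j => by
    simp [b, hb']
  have hx : ∀ x, x = b.repr x 0 • b 0 + b.repr x 1 • b 1 := fun x => by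
    conv_lhs => rw [← b.sum_repr x, Fin.sum_univ_two]
  have hBx : ∀ x y, B x y = s (b.repr x 0) * b.repr y 0 + s (b.repr x 1) * b.repr y 1 := fun x y => by
    conv_lhs => rw [hx x, hx y]
    simp [hb, mul_comm]
  let δ : (ι → F) → (ι → F) → K := fun x y => b.repr x 0 * b.repr y 1 - b.repr x 1 * b.repr y 0
  have hF' : ∀ (c : F) (x : ι → F), c • x = algebraMap F K c • x := fun c x =>
    (algebraMap_smul K c x).symm
  have hTc : ∀ (c : F) (x : K), T (algebraMap F K c * x) = c * T x := fun c x => by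
    rw [← Algebra.smul_def, map_smul, smul_eq_mul]
  have hω : IsSes (RingHom.id F) (-1) fun x y => T (δ x y) := by
    refine ⟨fun _ => rfl, .inr rfl, fun x y v => ?_, fun c x v => ?_, fun v w => ?_, fun v h => ?_⟩
    · rw [← map_add]; congr 1; simp only [δ, map_add, Finsupp.add_apply]; ring
    · rw [← hTc, hF']; congr 1; simp only [δ, map_smul, Finsupp.smul_apply, smul_eq_mul]; ring
    · rw [RingHom.id_apply, neg_one_mul, ← map_neg]; congr 1; simp only [δ]; ring
    · have h1 : b.repr v 1 = 0 := ext _ _ fun k => by simpa [δ] using h (k • b 0)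
      have h0 : b.repr v 0 = 0 := ext _ _ fun k => by simpa [δ] using h (k • b 1)
      rw [hx v, h0, h1]; simp
  refine ⟨_, hω.isSymplecticForm fun v => by simp [δ, mul_comm], fun g hN hg hdet => ?_,
    b 0 + b 1, fun h => by simpa using congrArg (fun x => b.repr x 0) h, fun k l => ?_,
    fun x => ?_⟩
  · obtain ⟨τ, hτ⟩ := exists_aut_of_normK hN
    simp only [H62.toLE_apply] at hτ
    have hBg : ∀ x y, B (g.val *ᵥ x) (g.val *ᵥ y) = τ (B x y) := fun x y => ext _ _ fun k => by
      obtain ⟨k, rfl⟩ := τ.surjective k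
      rw [hB, ← hτ, hg, ← hB, ← map_mul, Algebra.trace_eq_of_algEquiv]
    set d := δ (g.val *ᵥ b 0) (g.val *ᵥ b 1) with hdd
    have hδ : ∀ x y, δ (g.val *ᵥ x) (g.val *ᵥ y) = d * τ (δ x y) := fun x y => by
      conv_lhs => rw [hx x, hx y]
      simp only [hdd, δ, Matrix.mulVec_add, hτ, map_add, map_smul, Finsupp.add_apply,
        Finsupp.smul_apply, smul_eq_mul, map_sub, map_mul]
      ring
    have hd9 : s d * d = 1 := by
      have e00 := hBg (b 0) (b 0)
      have e01 := hBg (b 0) (b 1)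
      have e11 := hBg (b 1) (b 1)
      rw [hb, hBx] at e00 e01 e11
      rw [if_pos rfl, map_one τ] at e00 e11
      rw [if_neg (by decide), map_zero τ] at e01
      simp only [hdd, δ, map_sub, map_mul]
      linear_combination (s (b.repr (g.val *ᵥ b 1) 0) * b.repr (g.val *ᵥ b 1) 0 +
        s (b.repr (g.val *ᵥ b 1) 1) * b.repr (g.val *ᵥ b 1) 1) * e00 + e11 -
        (b.repr (g.val *ᵥ b 0) 0 * s (b.repr (g.val *ᵥ b 1) 0) +
          b.repr (g.val *ᵥ b 0) 1 * s (b.repr (g.val *ᵥ b 1) 1)) * e01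
    obtain ⟨e, he⟩ := τ.surjective d
    have he9 : e ^ 9 = 1 := τ.injective (by
      rw [map_pow, he, map_one, ← hd9, H59.frob_apply]; ring)
    have h1 : ∀ x y, T (δ (g.val *ᵥ x) (g.val *ᵥ y)) = T (e * δ x y) := fun x y => by
      rw [hδ, ← he, ← map_mul, Algebra.trace_eq_of_algEquiv]
    let E : (ι → F) →ₗ[K] (ι → F) := e • LinearMap.id
    have h3 := det_sq_of_alt hω (g := g.val) (E := LinearMap.toMatrix' (E.restrictScalars F))
      fun x y => by
        rw [h1, ← Matrix.toLin'_apply, Matrix.toLin'_toMatrix']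
        congr 1
        simp [E, δ]
        ring
    rw [hdet, LinearMap.det_toMatrix', LinearMap.det_restrictScalars, LinearMap.det_smul, hd,
      LinearMap.det_id] at h3
    have h4 := congrArg (algebraMap F K) h3
    rw [FiniteField.algebraMap_norm_eq_pow, Nat.card_eq_fintype_card, Nat.card_eq_fintype_card,
      hc, hF] at h4
    norm_num at h4
    have he3 : e ^ 3 = 1 := by
      have : e ^ 45 = e ^ 3 * (e ^ 2) ^ 21 := by ring
      rw [← h4, mul_one] at this
      rw [← this, show 45 = 9 * 5 by rfl, pow_mul, he9, one_pow]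
    have h5 : algebraMap F K (T e) = e := by
      rw [hT]
      linear_combination (e + e * (e ^ 12 + e ^ 9 + e ^ 6 + e ^ 3 + 1)) * he3 + e * h2
    refine ⟨Units.mk0 (T e) fun h => ?_, fun u v => ?_⟩
    · rw [h, map_zero] at h5
      simp [← h5] at he3
    · change T _ = T e * T _
      rw [h1, ← hTc, h5]
  · rw [hs', smul_smul, ← hB, hBx]
    simp [← two_mul, h2, show (1 : K) + 1 = 0 by linear_combination h2]
  · rw [← one_smul K x, ← hB, hBx, one_smul]
    congr 1
    simp [δ]
    linear_combination b.repr x 1 * h2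

/-- the normaliser of a cubic field is not maximal in `SU₆(2)` -/
theorem not_max_field_SU62 [Fintype F] (hF : Fintype.card F = 2 ^ 2) (hι : Fintype.card ι = 6)
    {f : (ι → F) → (ι → F) → F} (hf : IsSes (H59.frob hF) 1 f) {Ω : Subgroup (GL ι F)}
    (hΩ : ∀ g, g ∈ Ω ↔ IsIso f g ∧ g ∈ specialLinear ι F) {K : Subalgebra F (Matrix ι ι F)}
    (hK : IsFieldSubalgebra 3 K) (hc : IsAdjointClosedFor f K) :
    ¬ IsMaximalIn Ω (subalgebraNormalizer K ⊓ Ω) := by
  haveI : Nonempty ι := Fintype.card_pos_iff.1 (by omega)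
  have hσ := H59.frob_ne_id hF
  obtain ⟨K', _, _, _, _, _, h1, h2, h3⟩ := H62.exists_field_model hK
  have hT : TvGrp hf Ω := tvGrp_herm hf hσ (by omega) fun g h1 h2 => (hΩ g).2 ⟨h1, h2⟩
  obtain ⟨ω, hω, h4, v, hv, h5, h6⟩ := exists_alt_SU62 hF hι hf h1 fun k u w => by
    obtain ⟨A, hA, e⟩ := h3 k
    have : ∀ n : ℕ, A ^ n *ᵥ w = k ^ n • w := fun n => by
      induction n with
      | zero => simp
      | succ n ih => rw [pow_succ', ← Matrix.mulVec_mulVec, ih, e, smul_smul, pow_succ']
    rw [← e, hf.adj_spec, adj_eq_pow hF hf hσ hK hc hA, this]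
    rfl
  obtain ⟨A, hA, hns⟩ := exists_nonscalar_of_field hK (by norm_num)
  obtain ⟨k, hk⟩ := (h2 A).1 hA
  have hne : ∀ c : F, A *ᵥ v ≠ c • v := fun c h => hns c (eq_of_field hK hA (K.smul_mem K.one_mem c)
    hv (by rw [h, Matrix.smul_mulVec, Matrix.one_mulVec]))
  have hvv : f v v = 0 := by simpa using h5 1 1
  obtain ⟨c, hc0, hc'⟩ := hT.exc
  refine not_max_of_between (fun g hg => h4 g ((H62.mem_subalgebraNormalizer_iff h2 h3 g).1 hg.1)
    ((hΩ g).1 hg.2).1 (mem_specialLinear.1 ((hΩ g).1 hg.2).2))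
    (hT.not_le_simAlt hσ hω (u := v) (v := k • v) hvv (h5 k k) (by simpa using h5 1 k) hv
      fun hm => ?_) (hT.mem v hvv c hc') (ftv_mem_sim hf hvv c hω (a := 1) fun x => by
        rw [h6, one_mul]) fun hm => ?_
  · obtain ⟨l, hl⟩ := Submodule.mem_span_singleton.1 hm
    exact hne l (by rw [hk, hl])
  · have e := comm_of_field hK hm.1 (fixCodim_one_add_vecMulVec _ _) (by omega) hA
    obtain ⟨x, hx⟩ := hf.exists_ne_zero hv
    have e2 := congrArg (· *ᵥ x) e
    simp only [← Matrix.mulVec_mulVec, ftv_mulVec, Matrix.mulVec_add, Matrix.mulVec_smul,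
      add_right_inj] at e2
    refine hne ((c * f x v)⁻¹ * (c * f (A *ᵥ x) v)) ?_
    rw [mul_smul, e2, inv_smul_smul₀ (mul_ne_zero hc0 hx)]

end H25
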