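import Cfsg.Agent.H25.RowTs
import Cfsg.Agent.H54.SpPrim

/-! `GU₂(3).2` is not maximal in `Sp₄(3)`. -/

set_option autoImplicit false

namespace H25

open scoped MatrixGroups Matrix Pointwise
open Cfsg.Geo Module

variable {ι : Type} [Fintype ι] [DecidableEq ι] {F : Type*} [Field F]

/-- the skew generator of a quadratic subfield over `F₃` -/
theorem exists_skew_gen [Fintype F] [Nonempty ι] (hF : Fintype.card F = 3)
    {f : (ι → F) → (ι → F) → F} (hf : IsSes (RingHom.id F) (-1) f)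
    {K : Subalgebra F (Matrix ι ι F)} (hK : IsFieldSubalgebra 2 K) (hc : IsAdjointClosedFor f K)
    (hs : ¬ IsSelfAdjointFor f K) : ∃ J : Matrix ι ι F, J * J = -1 ∧
      (∀ u v, f (J *ᵥ u) v = -f u (J *ᵥ v)) ∧ ∀ g ∈ subalgebraNormalizer K,
        g.val * J = J * g.val ∨ g.val * J = -(J * g.val) := by
  have h3 := three_eq_zero_of_card_three hF
  have h2 : (2 : F) ≠ 0 := fun h => one_ne_zero (α := F) (by linear_combination h3 - h)
  have dom : ∀ x ∈ K, ∀ y ∈ K, x * y = 0 → x = 0 ∨ y = 0 := fun x hx y hy h => by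
    by_cases h0 : x = 0
    · exact .inl h0
    obtain ⟨z, hz, e⟩ := hK.inv x hx h0
    right
    rw [← one_mul y, ← e, hK.comm x hx z hz, mul_assoc, h, mul_zero]
  simp only [IsSelfAdjointFor, not_forall] at hs
  obtain ⟨k, hk, u, v, hne⟩ := hs
  have hk' : adj (RingHom.id F) f k ∈ K := by
    obtain ⟨k', h1, h2⟩ := hc k hk
    exact hf.eq_adj h2 ▸ h1
  set J := k - adj (RingHom.id F) f k with hJ
  have hJK : J ∈ K := K.sub_mem hk hk'
  have hadj : adj (RingHom.id F) f J = -J := by rw [hJ, hf.adj_sub, hf.adj_adj, neg_sub]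
  have hJ0 : J ≠ 0 := fun h => hne (by rw [hf.adj_spec, ← sub_eq_zero.1 h])
  have hsc : ∀ c : F, J ≠ c • 1 := fun c h => by
    have e := hadj
    rw [h, hf.adj_smul, hf.adj_one, RingHom.id_apply, eq_neg_iff_add_eq_zero, ← add_smul,
      ← two_mul, mul_smul, ← h, smul_eq_zero] at e
    exact e.elim h2 hJ0
  have hli : LinearIndependent F ![(⟨J, hJK⟩ : K), 1] := by
    rw [LinearIndependent.pair_symm_iff, LinearIndependent.pair_iff' one_ne_zero]
    exact fun a h => hsc a (congrArg Subtype.val h).symm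
  have hsp := hli.span_eq_top_of_card_eq_finrank' (by rw [hK.finrank_eq]; simp)
  have hJJ : J * J = -1 := by
    have hm : (⟨J * J, K.mul_mem hJK hJK⟩ : K) ∈ Submodule.span F (Set.range ![(⟨J, hJK⟩ : K), 1]) :=
      hsp ▸ Submodule.mem_top
    rw [Matrix.range_cons_cons_empty, Submodule.mem_span_pair] at hm
    obtain ⟨a, b, e⟩ := hm
    have e1 : a • J + b • 1 = J * J := congrArg Subtype.val e
    have e2 := congrArg (adj (RingHom.id F) f) e1
    rw [hf.adj_add, hf.adj_smul, hf.adj_smul, hf.adj_mul, hf.adj_one, hadj, neg_mul_neg, ← e1,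
      RingHom.id_apply, RingHom.id_apply, add_left_inj, smul_neg, neg_eq_iff_add_eq_zero,
      ← add_smul, smul_eq_zero, ← two_mul, mul_eq_zero] at e2
    have ha : a = 0 := (e2.resolve_right hJ0).resolve_left h2
    rw [ha, zero_smul, zero_add] at e1
    have hb : b ^ 3 = b := hF ▸ FiniteField.pow_card b
    have : b * (b - 1) * (b + 1) = 0 := by linear_combination hb
    rcases mul_eq_zero.1 this with h | h
    · rcases mul_eq_zero.1 h with h | h
      · rw [h, zero_smul] at e1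
        exact absurd ((dom J hJK J hJK e1.symm).elim id id) hJ0
      · rw [sub_eq_zero.1 h, one_smul] at e1
        rcases dom (J - 1) (K.sub_mem hJK K.one_mem) (J + 1) (K.add_mem hJK K.one_mem)
          (by rw [mul_add, sub_mul, ← e1]; simp) with h | h
        · exact absurd (by rw [one_smul, sub_eq_zero.1 h]) (hsc 1)
        · exact absurd (by rw [eq_neg_of_add_eq_zero_left h]; simp) (hsc (-1))
    · rw [← e1, eq_neg_of_add_eq_zero_left h]; simp
  refine ⟨J, hJJ, fun u v => by rw [hf.adj_spec, hadj, Matrix.neg_mulVec, hf.neg_right],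
    fun g hg => ?_⟩
  have hm := (hg J).1 hJK
  set J' := g.val * J * (g⁻¹).val with hJ'
  have e : J' * g.val = g.val * J := by rw [hJ', mul_assoc, Units.inv_mul, mul_one]
  have e2 : J' * J' = -1 := by
    rw [hJ', ← mul_assoc, ← mul_assoc, ← hJ', e, mul_assoc g.val, hJJ]; simp
  rcases dom (J' - J) (K.sub_mem hm hJK) (J' + J) (K.add_mem hm hJK)
    (by rw [mul_add, sub_mul J', sub_mul J', e2, hJJ, hK.comm J' hm J hJK]; abel) with h | h
  · exact .inl (by rw [← e, sub_eq_zero.1 h])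
  · exact .inr (by rw [← e, eq_neg_of_add_eq_zero_left h, neg_mul])

/-- normal form of a skew complex structure on `F₃⁴` -/
theorem exists_conj_J [Fintype F] (hF : Fintype.card F = 3)
    {J : Matrix (Fin 2 ⊕ Fin 2) (Fin 2 ⊕ Fin 2) F} (hJ : J * J = -1)
    (ha : ∀ u v, Cfsg.sympForm 2 F (J *ᵥ u) v = -Cfsg.sympForm 2 F u (J *ᵥ v)) :
    ∃ P ∈ Cfsg.spGL 2 F, J * P.val = P.val * Matrix.J (Fin 2) F := by
  have h3 := three_eq_zero_of_card_three hF
  have h2 : (2 : F) ≠ 0 := fun h => one_ne_zero (α := F) (by linear_combination h3 - h)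
  have hsf := H19.isSymplecticForm_sympForm 2 F
  have hf := isSes_of_symplectic hsf
  set f := Cfsg.sympForm 2 F with hfdef
  have hal := hsf.alternating
  have hsk : ∀ u v, f u v = -f v u := fun u v => by rw [hf.herm]; simp
  have hJJ : ∀ u, J *ᵥ (J *ᵥ u) = -u := fun u => by
    rw [Matrix.mulVec_mulVec, hJ, Matrix.neg_mulVec, Matrix.one_mulVec]
  have hsy : ∀ u v, f (J *ᵥ u) v = f (J *ᵥ v) u := fun u v => by rw [ha, hsk, neg_neg]
  have hiso : ∀ u v, f (J *ᵥ u) (J *ᵥ v) = f u v := fun u v => by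
    rw [ha, hJJ, hf.neg_right, neg_neg]
  -- normalisation inside a `J`-invariant subspace
  have norm : ∀ W : Submodule F (Fin 2 ⊕ Fin 2 → F), (∀ w ∈ W, J *ᵥ w ∈ W) →
      (∃ x ∈ W, ∃ y ∈ W, f x y ≠ 0) → ∃ u ∈ W, f (J *ᵥ u) u = 1 := by
    intro W hW ⟨x, hx, y, hy, hxy⟩
    obtain ⟨u, hu, h0⟩ : ∃ u ∈ W, f (J *ᵥ u) u ≠ 0 := by
      by_contra h
      push Not at h
      have e := h _ (W.add_mem (hW x hx) hy)
      rw [Matrix.mulVec_add, hf.add_left, hf.add_right, hf.add_right, h _ (hW x hx), h y hy,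
        hsy y, hJJ, hf.neg_left] at e
      exact hxy (mul_left_cancel₀ h2 (by linear_combination -e))
    have hb : f (J *ᵥ u) u ^ 3 = f (J *ᵥ u) u := hF ▸ FiniteField.pow_card _
    have : (f (J *ᵥ u) u - 1) * (f (J *ᵥ u) u + 1) = 0 :=
      mul_left_cancel₀ h0 (by linear_combination hb)
    rcases mul_eq_zero.1 this with h | h
    · exact ⟨u, hu, sub_eq_zero.1 h⟩
    · refine ⟨u + J *ᵥ u, W.add_mem hu (hW u hu), ?_⟩
      rw [Matrix.mulVec_add, hf.add_left, hf.add_right, hf.add_right, hal, hJJ, hf.neg_left, hal,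
        hf.neg_left, hsk u]
      linear_combination 2 * h - h3
  obtain ⟨u, -, hu⟩ := norm ⊤ (fun _ _ => trivial) (by
    obtain ⟨x, hx⟩ := hf.exists_ne_zero (v := Pi.single (Sum.inl 0) 1) (by simp)
    exact ⟨x, trivial, _, trivial, hx⟩)
  let W := hf.perp (Submodule.span F {u, J *ᵥ u})
  have hW : ∀ x, x ∈ W ↔ f x u = 0 ∧ f x (J *ᵥ u) = 0 := fun x => by
    refine ⟨fun h => ⟨h _ (Submodule.subset_span (by simp)), h _ (Submodule.subset_span (by simp))⟩,
      fun h w hw => ?_⟩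
    obtain ⟨a, b, rfl⟩ := Submodule.mem_span_pair.1 hw
    rw [hf.add_right, hf.smul_right, hf.smul_right, h.1, h.2]; simp
  have hu' : f u (J *ᵥ u) = -1 := by rw [hsk, hu]
  have hπ : ∀ x, x - f x u • J *ᵥ u + f x (J *ᵥ u) • u ∈ W := fun x => by
    rw [hW]
    simp only [hf.add_left, hf.sub_left, hf.smul_left, hu, hu', hal]
    constructor <;> ring
  obtain ⟨v, hv, hv1⟩ := norm W (fun w hw => by
    rw [hW] at hw ⊢
    exact ⟨by rw [ha, hw.2, neg_zero], by rw [hiso, hw.1]⟩) (by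
    by_contra h
    push Not at h
    have h1 : ∀ w ∈ W, w = 0 := fun w hw => hf.nondeg_left w fun y => by
      have := h w hw _ (hπ y)
      rw [hf.add_right, hf.sub_right, hf.smul_right, hf.smul_right, ((hW w).1 hw).1,
        ((hW w).1 hw).2] at this
      simpa using this
    have h4 := finrank_le_of_span_eq_top (R := F) (v := ![u, J *ᵥ u]) (eq_top_iff.2 fun x _ => by
      rw [Matrix.range_cons_cons_empty, Submodule.mem_span_pair]
      exact ⟨-f x (J *ᵥ u), f x u, by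
        have := h1 _ (hπ x)
        rw [neg_smul]
        linear_combination (exp := 1) -this⟩)
    simp at h4)
  obtain ⟨hv2, hv3⟩ := (hW v).1 hv
  let c : Fin 2 ⊕ Fin 2 → Fin 2 ⊕ Fin 2 → F := Sum.elim ![u, v] ![J *ᵥ u, J *ᵥ v]
  let P : Matrix (Fin 2 ⊕ Fin 2) (Fin 2 ⊕ Fin 2) F := (Matrix.of c)ᵀ
  have hP : Pᵀ * Matrix.J (Fin 2) F * P = Matrix.J (Fin 2) F := by
    have e : ∀ i j, (Pᵀ * Matrix.J (Fin 2) F * P) i j = f (c i) (c j) := fun i j => by
      rw [Matrix.mul_assoc]; rfl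
    have a1 : f u v = 0 := by rw [hsk, hv2, neg_zero]
    have a2 : f (J *ᵥ u) v = 0 := by rw [hsk, hv3, neg_zero]
    have a3 : f (J *ᵥ v) u = 0 := by rw [← hsy, a2]
    have a4 : f u (J *ᵥ v) = 0 := by rw [hsk, a3, neg_zero]
    have a5 : f v (J *ᵥ v) = -1 := by rw [hsk, hv1]
    ext i j
    rw [e]
    rcases i with i | i <;> rcases j with j | j <;> fin_cases i <;> fin_cases j <;>
      simp [c, Matrix.J, hal, hu, hu', hv1, hv2, hv3, a1, a2, a3, a4, a5, hiso]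
  have hs : P ∈ Matrix.symplecticGroup (Fin 2) F := SymplecticGroup.mem_iff'.2 hP
  refine ⟨Matrix.GeneralLinearGroup.mkOfDetNeZero P (SymplecticGroup.symplectic_det hs).ne_zero,
    H54.mem_spGL_iff.2 hs, ?_⟩
  change J * P = P * _
  ext i j
  have e : (J * P) i j = (J *ᵥ c j) i := rfl
  rw [e]
  rcases j with j | j <;> fin_cases j <;>
    simp [c, P, Matrix.J, Matrix.mul_apply, Fintype.sum_sum_type, Fin.sum_univ_two, hJJ]

namespace Sp43

abbrev M4 := Matrix (Fin 2 ⊕ Fin 2) (Fin 2 ⊕ Fin 2) (ZMod 3)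

def J0 : M4 := Matrix.fromBlocks 0 (-1) 1 0

/-- the frame of the orthogonal module -/
def T : Set M4 := {s | sᵀ * J0 = J0 * s ∧ s.trace = 0 ∧ s * s = 1 ∧
  (s * J0 = J0 * s ∨ s * J0 = -(J0 * s))}

def Mx : Subgroup (GL (Fin 2 ⊕ Fin 2) (ZMod 3)) :=
  (MulAction.stabilizer (ConjAct (GL (Fin 2 ⊕ Fin 2) (ZMod 3))) T).comap
    ConjAct.toConjAct.toMonoidHom

theorem mem_Mx {g : GL (Fin 2 ⊕ Fin 2) (ZMod 3)} :
    g ∈ Mx ↔ ∀ s ∈ T, g.val * s * (g⁻¹).val ∈ T := by
  rw [Mx, Subgroup.mem_comap, MulAction.mem_stabilizer_set_iff_smul_set_subset (Set.toFinite _),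
    Set.smul_set_subset_iff]
  rfl

theorem mem_Mx_of {g : GL (Fin 2 ⊕ Fin 2) (ZMod 3)} (hg : g.valᵀ * J0 * g.val = J0)
    (h : ∀ s ∈ T, s * ((g⁻¹).val * J0 * g.val) = (g⁻¹).val * J0 * g.val * s ∨
      s * ((g⁻¹).val * J0 * g.val) = -((g⁻¹).val * J0 * g.val * s)) : g ∈ Mx := by
  rw [mem_Mx]
  intro s hs
  have h0 := h s hs
  obtain ⟨h1, h2, h3, -⟩ := hs
  have e1 : g.valᵀ * J0 = J0 * (g⁻¹).val := by
    conv_rhs => rw [← hg]
    rw [mul_assoc, Units.mul_inv, mul_one]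
  have e2 : (g⁻¹).valᵀ * J0 = J0 * g.val := by
    conv_lhs => rw [← hg]
    rw [← mul_assoc, ← mul_assoc, ← Matrix.transpose_mul, Units.mul_inv]; simp
  have e3 : ∀ a : M4, g.val * a * (g⁻¹).val * J0 = g.val * (a * ((g⁻¹).val * J0 * g.val)) * (g⁻¹).val :=
    fun a => by simp only [mul_assoc, Units.mul_inv, mul_one]
  have e4 : ∀ a : M4, J0 * (g.val * a * (g⁻¹).val) =
      g.val * (((g⁻¹).val * J0 * g.val) * a) * (g⁻¹).val :=
    fun a => by simp only [← mul_assoc, Units.mul_inv, one_mul]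
  refine ⟨?_, ?_, ?_, ?_⟩
  · rw [Matrix.transpose_mul, Matrix.transpose_mul, mul_assoc, mul_assoc, e1, ← mul_assoc sᵀ, h1,
      ← mul_assoc, ← mul_assoc, e2]
    simp only [mul_assoc]
  · rw [Matrix.trace_mul_cycle, Units.inv_mul, one_mul, h2]
  · calc _ = g.val * (s * ((g⁻¹).val * g.val) * s) * (g⁻¹).val := by simp only [mul_assoc]
      _ = 1 := by rw [Units.inv_mul, mul_one, h3, mul_one, Units.mul_inv]
  · rw [e3, e4]
    rcases h0 with h | h <;> rw [h] <;> simp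

def g0 : GL (Fin 2 ⊕ Fin 2) (ZMod 3) :=
  ⟨Matrix.fromBlocks 1 1 0 1, Matrix.fromBlocks 1 (-1) 0 1, by decide +kernel, by decide +kernel⟩

def g1 : GL (Fin 2 ⊕ Fin 2) (ZMod 3) :=
  ⟨Matrix.fromBlocks 1 !![1, 0; 0, 0] 0 1, Matrix.fromBlocks 1 !![-1, 0; 0, 0] 0 1,
    by decide +kernel, by decide +kernel⟩

theorem g0_sp : g0.valᵀ * J0 * g0.val = J0 := by decide +kernel
theorem g1_sp : g1.valᵀ * J0 * g1.val = J0 := by decide +kernel

theorem g1_not : g1 ∉ Mx := fun h => by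
  have := (mem_Mx.1 h (Matrix.fromBlocks !![0, 1; 1, 0] 0 0 !![0, 1; 1, 0])
    ⟨by decide +kernel, by decide +kernel, by decide +kernel, by decide +kernel⟩).2.2.2
  revert this
  decide +kernel

set_option synthInstance.maxSize 4000 in
theorem g0_mem : g0 ∈ Mx := by
  refine mem_Mx_of g0_sp fun s ⟨h1, h2, h3, h4⟩ => ?_
  rw [show (g0⁻¹).val * J0 * g0.val = Matrix.fromBlocks (-1) 1 1 1 by decide +kernel]
  have key : ∀ x y z b c : ZMod 3, let s : M4 := (Matrix.fromBlocks !![x, y; z, -x] !![0, b; -b, 0]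
      !![0, c; -c, 0] !![x, z; y, -x])
      s * s = 1 → (s * J0 = J0 * s ∨ s * J0 = -(J0 * s)) →
      s * Matrix.fromBlocks (-1) 1 1 1 = Matrix.fromBlocks (-1) 1 1 1 * s ∨
        s * Matrix.fromBlocks (-1) 1 1 1 = -(Matrix.fromBlocks (-1) 1 1 1 * s) := by
    decide +kernel
  have z0 : ∀ a : ZMod 3, a = -a → a = 0 := by decide
  have z1 : ∀ a b : ZMod 3, a + b + (a + b) = 0 → b = -a := by decide
  have e : ∀ i j, (sᵀ * J0) i j = (J0 * s) i j := fun i j => by rw [h1]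
  have e1 := e (.inl 0) (.inl 0)
  have e2 := e (.inl 0) (.inl 1)
  have e3 := e (.inl 1) (.inl 1)
  have e4 := e (.inr 0) (.inr 0)
  have e5 := e (.inr 0) (.inr 1)
  have e6 := e (.inr 1) (.inr 1)
  have e7 := e (.inl 0) (.inr 0)
  have e8 := e (.inl 0) (.inr 1)
  have e9 := e (.inl 1) (.inr 0)
  have e10 := e (.inl 1) (.inr 1)
  simp [J0, Matrix.mul_apply, Fintype.sum_sum_type, Fin.sum_univ_two] at e1 e2 e3 e4 e5 e6 e7 e8 e9 e10
  simp only [Matrix.trace, Matrix.diag, Fintype.sum_sum_type, Fin.sum_univ_two, ← e7, ← e10] at h2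
  have hs : s = Matrix.fromBlocks
      !![s (.inl 0) (.inl 0), s (.inl 0) (.inl 1); s (.inl 1) (.inl 0), -s (.inl 0) (.inl 0)]
      !![0, s (.inl 0) (.inr 1); -s (.inl 0) (.inr 1), 0]
      !![0, s (.inr 0) (.inl 1); -s (.inr 0) (.inl 1), 0]
      !![s (.inl 0) (.inl 0), s (.inl 1) (.inl 0); s (.inl 0) (.inl 1), -s (.inl 0) (.inl 0)] := by
    have f1 := z0 _ e1
    have f3 := z0 _ e3
    have f4 := z0 _ e4.symm
    have f6 := z0 _ e6.symm
    have f2 := z1 _ _ h2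
    ext i j
    rcases i with i | i <;> rcases j with j | j <;> fin_cases i <;> fin_cases j <;>
      simp [f1, f2, f3, f4, f6, e2, ← e5, ← e7, ← e8, ← e9, ← e10]
  rw [hs] at h3 h4 ⊢
  exact key _ _ _ _ _ h3 h4

theorem g0_ne : ¬ (g0.val * J0 = J0 * g0.val ∨ g0.val * J0 = -(J0 * g0.val)) := by decide +kernel

end Sp43

open Sp43 in
/-- `GU₂(3).2` is not maximal in `Sp₄(3)` -/
theorem not_max_gu_Sp43 [Fintype F] (hF : Fintype.card F = 3)
    {K : Subalgebra F (Matrix (Fin 2 ⊕ Fin 2) (Fin 2 ⊕ Fin 2) F)} (hK : IsFieldSubalgebra 2 K)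
    (hc : IsAdjointClosedFor (Cfsg.sympForm 2 F) K) (hs : ¬ IsSelfAdjointFor (Cfsg.sympForm 2 F) K) :
    ¬ IsMaximalIn (Cfsg.spGL 2 F) (subalgebraNormalizer K ⊓ Cfsg.spGL 2 F) := by
  intro hH
  haveI : Fact (Nat.Prime 3) := ⟨Nat.prime_three⟩
  obtain ⟨J, h1, h2, h3⟩ := exists_skew_gen hF
    (isSes_of_symplectic (H19.isSymplecticForm_sympForm 2 F)) hK hc hs
  obtain ⟨P, hP, hJ⟩ := exists_conj_J hF h1 h2
  let φ := ZMod.ringEquivOfPrime F Nat.prime_three hF
  let ψ : M4 ≃+* Matrix (Fin 2 ⊕ Fin 2) (Fin 2 ⊕ Fin 2) F := φ.mapMatrix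
  let Φ : GL (Fin 2 ⊕ Fin 2) (ZMod 3) ≃* GL (Fin 2 ⊕ Fin 2) F := Units.mapEquiv ψ.toMulEquiv
  have hψ : ψ J0 = Matrix.J (Fin 2) F := Matrix.map_J (Fin 2) (φ : ZMod 3 →+* F)
  have hΩ : ∀ g, (Φ.trans (MulAut.conj P)) g ∈ Cfsg.spGL 2 F ↔ g.valᵀ * J0 * g.val = J0 := fun g => by
    change P * Φ g * P⁻¹ ∈ _ ↔ _
    rw [mul_mem_cancel_right (inv_mem hP), mul_mem_cancel_left hP, H54.mem_spGL_iff,
      SymplecticGroup.mem_iff', ← ψ.injective.eq_iff, map_mul, map_mul, hψ]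
    rfl
  have hN : ∀ g, (Φ.trans (MulAut.conj P)) g ∈ subalgebraNormalizer K →
      g.val * J0 = J0 * g.val ∨ g.val * J0 = -(J0 * g.val) := fun g hg => by
    have e := h3 _ hg
    change P.val * ψ g.val * (P⁻¹).val * J = J * (P.val * ψ g.val * (P⁻¹).val) ∨
      P.val * ψ g.val * (P⁻¹).val * J = -(J * (P.val * ψ g.val * (P⁻¹).val)) at e
    have e1 : (P⁻¹).val * J = ψ J0 * (P⁻¹).val := by
      rw [hψ, Units.inv_mul_eq_iff_eq_mul, ← mul_assoc, ← hJ, mul_assoc, Units.mul_inv, mul_one]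
    rw [mul_assoc _ _ J, e1, ← mul_assoc J, ← mul_assoc J, hJ, ← hψ, ← mul_assoc, mul_assoc P.val,
      mul_assoc P.val (ψ J0), ← neg_mul, ← mul_neg, Units.mul_left_inj, Units.mul_left_inj,
      Units.mul_right_inj, Units.mul_right_inj, ← map_mul, ← map_mul, ← map_neg,
      ψ.injective.eq_iff, ψ.injective.eq_iff] at e
    exact e
  refine not_max_of_between (M := Mx) (H := (subalgebraNormalizer K ⊓ Cfsg.spGL 2 F).comap
    (Φ.trans (MulAut.conj P)).toMonoidHom) (fun g hg => ?_) (fun h => g1_not (h ((hΩ g1).2 g1_sp)))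
    ((hΩ g0).2 g0_sp) g0_mem (fun h => g0_ne (hN g0 h.1)) (isMaximalIn_comap _ hH)
  refine mem_Mx_of ((hΩ g).1 hg.2) fun s hs => ?_
  have e : (g⁻¹).val * J0 * g.val = J0 ∨ (g⁻¹).val * J0 * g.val = -J0 := by
    rcases hN g hg.1 with h | h
    · exact .inl (by rw [mul_assoc, ← h, ← mul_assoc, Units.inv_mul, one_mul])
    · exact .inr (by rw [mul_assoc, ← neg_eq_iff_eq_neg.2 h, mul_neg, ← mul_assoc, Units.inv_mul,
        one_mul])
  rcases e with e | e <;> rw [e]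
  · exact hs.2.2.2
  · rcases hs.2.2.2 with h | h <;> simp [h]

end H25
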